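import Mathlib

/-!
# Commuting pairs in cosets of a subgroup
-/

set_option autoImplicit false
set_option linter.style.haveILetI false

namespace Cfsg.Agent.FGS3

variable {G : Type*} [Group G]

/-- Number of commuting pairs of a group. -/
noncomputable def numCommPairs (G : Type*) [Group G] : ℕ :=
  Nat.card {v : G × G // Commute v.1 v.2}

theorem numCommPairs_eq [Finite G] : numCommPairs G = Nat.card (ConjClasses G) * Nat.card G :=
  card_comm_eq_card_conjClasses_mul_card G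

/-- Commuting pairs lying in a given pair of left cosets. -/
abbrev CosetPairs (Y : Subgroup G) (c : (G ⧸ Y) × (G ⧸ Y)) : Type _ :=
  {v : {v : G × G // Commute v.1 v.2} // ((v.1.1 : G ⧸ Y), (v.1.2 : G ⧸ Y)) = c}

/-- Elements of a left coset with a commuting element of the subgroup. -/
abbrev CosetCommute (Y : Subgroup G) (a : G ⧸ Y) : Type _ :=
  {w : G × Y // (w.1 : G ⧸ Y) = a ∧ Commute w.1 (w.2 : G)}

theorem card_cosetPairs_le_cosetCommute [Finite G] (Y : Subgroup G) (c : (G ⧸ Y) × (G ⧸ Y)) :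
    Nat.card (CosetPairs Y c) ≤ Nat.card (CosetCommute Y c.1) := by
  classical
  let y0 : G → G := fun x => if h : ∃ y : G, Commute x y ∧ (y : G ⧸ Y) = c.2 then h.choose else 1
  have key : ∀ v : CosetPairs Y c, Commute v.1.1.1 (y0 v.1.1.1) ∧ (y0 v.1.1.1 : G ⧸ Y) = c.2 := by
    intro v
    have h : ∃ y : G, Commute v.1.1.1 y ∧ (y : G ⧸ Y) = c.2 := ⟨v.1.1.2, v.1.2, congrArg Prod.snd v.2⟩
    simp only [y0, dif_pos h]
    exact h.choose_spec
  refine Nat.card_le_card_of_injective (fun v =>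
    ⟨(v.1.1.1, ⟨(y0 v.1.1.1)⁻¹ * v.1.1.2, QuotientGroup.eq.1 ((key v).2.trans (congrArg Prod.snd v.2).symm)⟩),
      congrArg Prod.fst v.2, ((key v).1.inv_right).mul_right v.1.2⟩) fun v v' h => ?_
  have h1 : v.1.1.1 = v'.1.1.1 := congrArg (fun w => w.1.1) h
  have h2 : (y0 v.1.1.1)⁻¹ * v.1.1.2 = (y0 v'.1.1.1)⁻¹ * v'.1.1.2 := congrArg (fun w => (w.1.2 : G)) h
  rw [← h1] at h2
  exact Subtype.ext (Subtype.ext (Prod.ext h1 (mul_left_cancel h2)))

/-- Injection into the commuting pairs of the subgroup. -/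
theorem exists_cosetCommute_injection (Y : Subgroup G) (a : G ⧸ Y) :
    ∃ f : CosetCommute Y a → {v : Y × Y // Commute v.1 v.2}, Function.Injective f ∧
      ∀ w, (f w).1.1 = w.1.2 := by
  classical
  let x0 : Y → G := fun n => if h : ∃ x : G, (x : G ⧸ Y) = a ∧ Commute x (n : G) then h.choose else 1
  have key : ∀ w : CosetCommute Y a, (x0 w.1.2 : G ⧸ Y) = a ∧ Commute (x0 w.1.2) (w.1.2 : G) := by
    intro w
    have h : ∃ x : G, (x : G ⧸ Y) = a ∧ Commute x (w.1.2 : G) := ⟨w.1.1, w.2⟩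
    simp only [x0, dif_pos h]
    exact h.choose_spec
  refine ⟨fun w => ⟨(w.1.2, ⟨(x0 w.1.2)⁻¹ * w.1.1, QuotientGroup.eq.1 ((key w).1.trans w.2.1.symm)⟩),
    Subtype.ext ((((key w).2.inv_left).mul_left w.2.2).symm.eq)⟩, fun w w' h => ?_, fun w => rfl⟩
  have h1 : w.1.2 = w'.1.2 := congrArg (fun t => t.1.1) h
  have h2 : (x0 w.1.2)⁻¹ * w.1.1 = (x0 w'.1.2)⁻¹ * w'.1.1 := congrArg (fun t => (t.1.2 : G)) h
  rw [← h1] at h2
  exact Subtype.ext (Prod.ext (mul_left_cancel h2) h1)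

theorem card_cosetPairs_le [Finite G] (Y : Subgroup G) (c : (G ⧸ Y) × (G ⧸ Y)) :
    Nat.card (CosetPairs Y c) ≤ numCommPairs Y := by
  obtain ⟨f, hf, -⟩ := exists_cosetCommute_injection Y c.1
  exact (card_cosetPairs_le_cosetCommute Y c).trans (Nat.card_le_card_of_injective f hf)

theorem card_cosetPairs_lt [Finite G] (Y : Subgroup G) {g : G} {n : Y}
    (hgn : g⁻¹ * n * g ∉ Y) (c : G ⧸ Y) : Nat.card (CosetPairs Y ((g : G ⧸ Y), c)) < numCommPairs Y := by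
  obtain ⟨f, hf, hf2⟩ := exists_cosetCommute_injection Y (g : G ⧸ Y)
  refine lt_of_le_of_lt (card_cosetPairs_le_cosetCommute Y _) (lt_of_le_of_ne (Nat.card_le_card_of_injective f hf) fun heq => ?_)
  obtain ⟨w, hw⟩ := ((Nat.bijective_iff_injective_and_card f).2 ⟨hf, heq⟩).2 ⟨(n, 1), Commute.one_right n⟩
  have hwn : w.1.2 = n := (hf2 w).symm.trans (congrArg (fun v => v.1.1) hw)
  obtain ⟨⟨x, m⟩, hx, hc⟩ := w
  simp only at hwn hc
  subst hwn
  have hu : g⁻¹ * x ∈ Y := QuotientGroup.eq.1 hx.symm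
  apply hgn
  have : g⁻¹ * (m : G) * g = (g⁻¹ * x) * m * (g⁻¹ * x)⁻¹ := by
    calc g⁻¹ * (m : G) * g = g⁻¹ * ((m : G) * x) * x⁻¹ * g := by group
      _ = g⁻¹ * (x * m) * x⁻¹ * g := by rw [hc.eq]
      _ = (g⁻¹ * x) * m * (g⁻¹ * x)⁻¹ := by group
  rw [this]
  exact Y.mul_mem (Y.mul_mem hu m.2) (Y.inv_mem hu)

theorem numCommPairs_eq_sum [Finite G] (Y : Subgroup G) [Fintype ((G ⧸ Y) × (G ⧸ Y))] :
    numCommPairs G = ∑ c : (G ⧸ Y) × (G ⧸ Y), Nat.card (CosetPairs Y c) := by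
  rw [numCommPairs, ← Nat.card_congr (Equiv.sigmaFiberEquiv
    (fun v : {v : G × G // Commute v.1 v.2} => ((v.1.1 : G ⧸ Y), (v.1.2 : G ⧸ Y)))), Nat.card_sigma]

end Cfsg.Agent.FGS3
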