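import Cfsg.Prelude.Def_FischerSpaces
import Cfsg.Agent.Screen.ThreeTransp

/-! Partial linear spaces with three-point lines; the two plane models of a Fischer space. -/

set_option autoImplicit false
open Cfsg

namespace Cfsg.Agent.FGS3.FS

section Lines

variable {X : Type*} {L : Set (Set X)}

theorem isSubspace_span (S : Set X) : LineSystem.IsSubspace L (LineSystem.span L S) := by
  intro l hl x hx y hy hxy hxl hyl z hz T hT
  exact hT.2 l hl x (hx T hT) y (hy T hT) hxy hxl hyl hz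

theorem subset_span (S : Set X) : S ⊆ LineSystem.span L S :=
  fun _ hx T hT => hT.1 hx

theorem exists_third (h3 : ∀ l ∈ L, l.ncard = 3) {l : Set X} (hl : l ∈ L) {x y : X}
    (hx : x ∈ l) (hy : y ∈ l) (hxy : x ≠ y) : ∃ z, z ≠ x ∧ z ≠ y ∧ l = {x, y, z} := by
  have hfin : l.Finite := Set.finite_of_ncard_ne_zero (by rw [h3 l hl]; norm_num)
  obtain ⟨z, hz, hzn⟩ := Set.exists_mem_notMem_of_ncard_lt_ncard
    (show ({x, y} : Set X).ncard < l.ncard by rw [h3 l hl, Set.ncard_pair hxy]; norm_num)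
    (Set.toFinite _)
  have hzx : z ≠ x := fun e => hzn (by simp [e])
  have hzy : z ≠ y := fun e => hzn (by simp [e])
  refine ⟨z, hzx, hzy, (Set.eq_of_subset_of_ncard_le ?_ ?_ hfin).symm⟩
  · simp [Set.insert_subset_iff, hx, hy, hz]
  · rw [h3 l hl, Set.ncard_eq_three.2 ⟨x, y, z, hxy, Ne.symm hzx, Ne.symm hzy, rfl⟩]

theorem lineMap_eq (hpl : LineSystem.IsPartialLinear L) (h3 : ∀ l ∈ L, l.ncard = 3) {l : Set X}
    (hl : l ∈ L) {x y z : X} (hx : x ∈ l) (hy : y ∈ l) (hz : z ∈ l) (hxy : x ≠ y) (hzx : z ≠ x)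
    (hzy : z ≠ y) : LineSystem.lineMap L x y = z := by
  obtain ⟨z', hz'x, hz'y, hle⟩ := exists_third h3 hl hx hy hxy
  have hzz : z = z' := by
    rw [hle] at hz
    rcases hz with h | h | h
    · exact absurd h hzx
    · exact absurd h hzy
    · exact h
  have hex : ∃ w : X, w ≠ x ∧ w ≠ y ∧ x ≠ y ∧ ({x, y, w} : Set X) ∈ L :=
    ⟨z', hz'x, hz'y, hxy, hle ▸ hl⟩
  rw [LineSystem.lineMap, dif_pos hex]
  obtain ⟨h1, h2, -, h4⟩ := hex.choose_spec
  have := hpl _ h4 l hl x y hxy (by simp) (by simp) hx hy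
  have hm : hex.choose ∈ l := by rw [← this]; simp
  rw [hle] at hm
  rcases hm with h | h | h
  · exact absurd h h1
  · exact absurd h h2
  · exact h.trans hzz.symm

theorem lineMap_fix {x y : X} (h : ¬ LineSystem.Collinear L x y) :
    LineSystem.lineMap L x y = y := by
  rw [LineSystem.lineMap, dif_neg]
  rintro ⟨z, -, -, hxy, hl⟩
  exact h ⟨hxy, _, hl, by simp, by simp⟩

theorem lineMap_self (x : X) : LineSystem.lineMap L x x = x :=
  lineMap_fix fun h => h.1 rfl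

theorem lineMap_spec (hpl : LineSystem.IsPartialLinear L) (h3 : ∀ l ∈ L, l.ncard = 3) {l : Set X}
    (hl : l ∈ L) {x y : X} (hx : x ∈ l) (hy : y ∈ l) (hxy : x ≠ y) :
    LineSystem.lineMap L x y ∈ l ∧ LineSystem.lineMap L x y ≠ x ∧ LineSystem.lineMap L x y ≠ y := by
  obtain ⟨z, hzx, hzy, hle⟩ := exists_third h3 hl hx hy hxy
  have hz : z ∈ l := by rw [hle]; simp
  rw [lineMap_eq hpl h3 hl hx hy hz hxy hzx hzy]
  exact ⟨hz, hzx, hzy⟩

theorem lineMap_involutive (hpl : LineSystem.IsPartialLinear L) (h3 : ∀ l ∈ L, l.ncard = 3) (x : X) :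
    Function.Involutive (LineSystem.lineMap L x) := by
  intro y
  by_cases h : LineSystem.Collinear L x y
  · obtain ⟨hxy, l, hl, hx, hy⟩ := h
    obtain ⟨h1, h2, h3'⟩ := lineMap_spec hpl h3 hl hx hy hxy
    exact lineMap_eq hpl h3 hl hx h1 hy (Ne.symm h2) (Ne.symm hxy) (Ne.symm h3')
  · rw [lineMap_fix h, lineMap_fix h]

end Lines

/-- In the model the flip at a point maps lines to lines. -/
def HasFlips {P : Type*} (M : Set (Set P)) : Prop :=
  ∀ m ∈ M, ∀ x : P, x ∉ m → ∃ m' ∈ M, ∀ w ∈ m, ((¬ ∃ k ∈ M, x ∈ k ∧ w ∈ k) → w ∈ m') ∧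
    ∀ k ∈ M, x ∈ k → w ∈ k → ∀ z ∈ k, z ≠ x → z ≠ w → z ∈ m'

set_option synthInstance.maxHeartbeats 400000 in
set_option synthInstance.maxSize 1024 in
theorem dual_flip_fin : ∀ (i : Fin 4) (x : DualAffinePoint), i ∈ x.val → ∃ j : Fin 4,
    ∀ w : DualAffinePoint, i ∉ w.val → ((∀ k : Fin 4, k ∈ x.val ∨ k ∈ w.val) → j ∉ w.val) ∧
      ∀ k : Fin 4, k ∉ x.val → k ∉ w.val → ∀ z : DualAffinePoint, k ∉ z.val → z ≠ x → z ≠ w →
        j ∉ z.val := by
  decide +kernel

theorem dualAffine_flips : HasFlips dualAffinePlaneTwo := by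
  rintro _ ⟨i, rfl⟩ x hx
  obtain ⟨j, hj⟩ := dual_flip_fin i x (by simpa using hx)
  refine ⟨_, ⟨j, rfl⟩, fun w hw => ⟨fun hn => (hj w hw).1 fun k => ?_, ?_⟩⟩
  · by_contra hc
    push Not at hc
    exact hn ⟨_, ⟨k, rfl⟩, hc.1, hc.2⟩
  · rintro _ ⟨k, rfl⟩ h1 h2 z hz h3 h4
    exact (hj w hw).2 k h1 h2 z hz h3 h4

theorem three_distinct : ∀ a b c : ZMod 3, a ≠ b → a ≠ c → b ≠ c → a + b + c = 0 := by decide

theorem affine_flips : HasFlips affinePlaneThree := by
  rintro _ ⟨v, w₀, hw₀, rfl⟩ x hx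
  refine ⟨_, ⟨-x - v, w₀, hw₀, rfl⟩, ?_⟩
  rintro w ⟨c, rfl⟩
  refine ⟨fun hn => ?_, ?_⟩
  · refine absurd ⟨_, ⟨x, v + c • w₀ - x, ?_, rfl⟩, ⟨0, by simp⟩, ⟨1, by simp⟩⟩ hn
    intro h
    exact hx ⟨c, (sub_eq_zero.1 h).symm⟩
  · rintro _ ⟨u, s, hs, rfl⟩ ⟨a, ha⟩ ⟨b, hb⟩ z ⟨t, rfl⟩ hzx hzw
    refine ⟨-c, ?_⟩
    have hab : a ≠ b := fun h => hx ⟨c, by rw [ha, hb, h]⟩
    have hat : a ≠ t := fun h => hzx (by rw [ha, h])
    have hbt : b ≠ t := fun h => hzw (by rw [hb, h])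
    have hsum := three_distinct a b t hab hat hbt
    have h3 : ∀ r : ZMod 3, 3 * r = 0 := by decide
    funext i
    have hv := congrFun hb i
    have hxi := congrFun ha i
    simp only [Pi.add_apply, Pi.smul_apply, smul_eq_mul] at hv hxi
    simp only [Pi.add_apply, Pi.sub_apply, Pi.neg_apply, Pi.smul_apply, smul_eq_mul]
    linear_combination h3 (u i) + (s i) * hsum + hv + hxi

section Flip

variable {X : Type*} {L : Set (Set X)}

/-- The flip at a point maps every line to a line. -/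
theorem lineMap_image_mem (hF : IsFischerSpace L) (x : X) {m : Set X} (hm : m ∈ L) :
    LineSystem.lineMap L x '' m ∈ L := by
  obtain ⟨hpl, h3, hplane⟩ := hF
  have hinv := lineMap_involutive hpl h3 x
  have hfin : ∀ k ∈ L, (k : Set X).Finite := fun k hk =>
    Set.finite_of_ncard_ne_zero (by rw [h3 k hk]; norm_num)
  have finish : ∀ m' ∈ L, (∀ w ∈ m, LineSystem.lineMap L x w ∈ m') →
      LineSystem.lineMap L x '' m ∈ L := by
    intro m' hm' h
    rwa [Set.eq_of_subset_of_ncard_le (Set.image_subset_iff.2 h)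
      (by rw [Set.ncard_image_of_injective _ hinv.injective, h3 _ hm, h3 _ hm']) (hfin _ hm')]
  by_cases hxm : x ∈ m
  · refine finish m hm fun w hw => ?_
    rcases eq_or_ne x w with rfl | hne
    · rwa [lineMap_self]
    · exact (lineMap_spec hpl h3 hm hxm hw hne).1
  by_cases hcol : ∀ w ∈ m, ¬ LineSystem.Collinear L x w
  · exact finish m hm fun w hw => by rwa [lineMap_fix (hcol w hw)]
  push Not at hcol
  obtain ⟨y, hy, -, l, hl, hxl, hyl⟩ := hcol
  have hlm : l ≠ m := fun e => hxm (e ▸ hxl)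
  suffices H : ∀ {P : Type} (M : Set (Set P)), HasFlips M →
      LineSystem.Isomorphic (LineSystem.restrict L (LineSystem.span L (l ∪ m))) M →
      LineSystem.lineMap L x '' m ∈ L by
    rcases hplane l hl m hm hlm ⟨y, hyl, hy⟩ with h | h
    · exact H _ dualAffine_flips h
    · exact H _ affine_flips h
  set S := LineSystem.span L (l ∪ m) with hS
  intro P M hM ⟨e, he⟩
  have hmS : m ⊆ S := fun w hw => subset_span _ (Or.inr hw)
  have hxS : x ∈ S := subset_span _ (Or.inl hxl)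
  have himg : ∀ k ∈ L, k ⊆ S → e '' {p : S | (p : X) ∈ k} ∈ M := fun k hk hks =>
    (he _).1 ⟨k, hk, hks, rfl⟩
  have hpre : ∀ k ∈ M, ∃ k' ∈ L, k' ⊆ S ∧ ∀ p : S, e p ∈ k ↔ (p : X) ∈ k' := by
    intro k hk
    obtain ⟨k', hk', hks, heq⟩ := (he (e ⁻¹' k)).2 (by rwa [e.image_preimage])
    exact ⟨k', hk', hks, fun p => Set.ext_iff.1 heq p⟩
  obtain ⟨n, hn, hprop⟩ := hM _ (himg m hm hmS) (e ⟨x, hxS⟩) (by
    rintro ⟨p, hp, hpe⟩
    exact hxm (by rwa [e.injective hpe] at hp))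
  obtain ⟨m', hm', -, hmem⟩ := hpre n hn
  refine finish m' hm' fun w hw => ?_
  have hwn := hprop (e ⟨w, hmS hw⟩) ⟨_, hw, rfl⟩
  have hne : x ≠ w := fun h => hxm (h ▸ hw)
  by_cases hc : LineSystem.Collinear L x w
  · obtain ⟨-, k, hk, hxk, hwk⟩ := hc
    have hkS : k ⊆ S := isSubspace_span _ k hk x hxS w (hmS hw) hne hxk hwk
    obtain ⟨h1, h2, h4⟩ := lineMap_spec hpl h3 hk hxk hwk hne
    refine (hmem ⟨_, hkS h1⟩).1 (hwn.2 _ (himg k hk hkS) ⟨_, hxk, rfl⟩ ⟨_, hwk, rfl⟩ _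
      ⟨⟨_, hkS h1⟩, h1, rfl⟩ ?_ ?_)
    · exact fun h => h2 (congrArg Subtype.val (e.injective h))
    · exact fun h => h4 (congrArg Subtype.val (e.injective h))
  · rw [lineMap_fix hc]
    refine (hmem ⟨w, hmS hw⟩).1 (hwn.1 ?_)
    rintro ⟨k, hk, h1, h2⟩
    obtain ⟨k', hk', -, hmem'⟩ := hpre k hk
    exact hc ⟨hne, k', hk', (hmem' _).1 h1, (hmem' _).1 h2⟩

end Flip

section Group

variable {G : Type*} [Group G] {D : Set G}

/-- the triple through two members -/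
def lineOf (D : Set G) (x y : D) : Set D :=
  {z : D | (z : G) = x ∨ (z : G) = y ∨ (z : G) = (y : G) * (x : G) * (y : G)⁻¹}

theorem left_mem_lineOf (x y : D) : x ∈ lineOf D x y := Or.inl rfl

theorem right_mem_lineOf (x y : D) : y ∈ lineOf D x y := Or.inr (Or.inl rfl)

theorem lineOf_swap (hD : IsThreeTranspositionSet D) {x y : D} (h : ¬ Commute (x : G) y) :
    lineOf D y x = lineOf D x y := by
  have hx := inv_eq_of_mul_eq_one_left (Screen.tt_mul_self hD x.2)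
  have hy := inv_eq_of_mul_eq_one_left (Screen.tt_mul_self hD y.2)
  have b := Screen.tt_braid hD x.2 y.2 h
  ext z
  simp only [lineOf, Set.mem_setOf_eq, hx, hy, b]
  tauto

theorem lineOf_rotate (hD : IsThreeTranspositionSet D) {x y c : D} (h : ¬ Commute (x : G) y)
    (hc : (c : G) = (y : G) * x * (y : G)⁻¹) :
    ¬ Commute (x : G) c ∧ lineOf D x c = lineOf D x y := by
  have xx := Screen.tt_mul_self hD x.2
  have hx := inv_eq_of_mul_eq_one_left xx
  have yy := Screen.tt_mul_self hD y.2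
  have hy := inv_eq_of_mul_eq_one_left yy
  have b := Screen.tt_braid hD x.2 y.2 h
  rw [hy, ← b] at hc
  have e : (c : G) * x * (c : G)⁻¹ = y := by
    rw [hc]
    simp only [mul_inv_rev, hx, hy, mul_assoc, Screen.mul_mul_self_cancel xx]
    calc (x : G) * (y * (x * (y * x))) = x * ((y * x * y) * x) := by simp only [mul_assoc]
      _ = x * ((x * y * x) * x) := by rw [b]
      _ = y := by simp only [mul_assoc, Screen.mul_mul_self_cancel xx, xx, mul_one]
  refine ⟨fun hcc => h ?_, ?_⟩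
  · have : (y : G) = x := by rw [← e, hcc.symm.eq, mul_inv_cancel_right]
    rw [this]
  · ext z
    simp only [lineOf, Set.mem_setOf_eq, e]
    rw [hc, hy, ← b]
    tauto

theorem lineOf_eq (hD : IsThreeTranspositionGroup D) {x y u v : D} (h : ¬ Commute (x : G) y)
    (hu : u ∈ lineOf D x y) (hv : v ∈ lineOf D x y) (huv : u ≠ v) :
    ¬ Commute (u : G) v ∧ lineOf D u v = lineOf D x y := by
  have hyx : ¬ Commute (y : G) x := fun h' => h h'.symm
  have cmem : (y : G) * x * (y : G)⁻¹ ∈ D := hD.2.1 _ _ x.2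
  set c : D := ⟨_, cmem⟩
  obtain ⟨hxc, lxc⟩ := lineOf_rotate hD.1 (c := c) h rfl
  obtain ⟨hyc, lyc⟩ := lineOf_rotate hD.1 (c := c) hyx (by
    show (y : G) * x * (y : G)⁻¹ = x * y * (x : G)⁻¹
    rw [inv_eq_of_mul_eq_one_left (Screen.tt_mul_self hD.1 x.2),
      inv_eq_of_mul_eq_one_left (Screen.tt_mul_self hD.1 y.2), Screen.tt_braid hD.1 x.2 y.2 h])
  rw [lineOf_swap hD.1 h] at lyc
  have hcase : ∀ w : D, w ∈ lineOf D x y → w = x ∨ w = y ∨ w = c := fun w hw =>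
    hw.imp Subtype.ext (Or.imp Subtype.ext Subtype.ext)
  rcases hcase u hu with rfl | rfl | rfl <;> rcases hcase v hv with rfl | rfl | rfl
  · exact absurd rfl huv
  · exact ⟨h, rfl⟩
  · exact ⟨hxc, lxc⟩
  · exact ⟨hyx, lineOf_swap hD.1 h⟩
  · exact absurd rfl huv
  · exact ⟨hyc, lyc⟩
  · exact ⟨fun h' => hxc h'.symm, (lineOf_swap hD.1 hxc).trans lxc⟩
  · exact ⟨fun h' => hyc h'.symm, (lineOf_swap hD.1 hyc).trans lyc⟩
  · exact absurd rfl huv

theorem line_eq_lineOf (hD : IsThreeTranspositionGroup D) {l : Set D}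
    (hl : l ∈ threeTranspositionLines D) {u v : D} (hu : u ∈ l) (hv : v ∈ l) (huv : u ≠ v) :
    ¬ Commute (u : G) v ∧ l = lineOf D u v := by
  obtain ⟨x, y, h, rfl⟩ := hl
  exact (lineOf_eq hD h hu hv huv).imp_right Eq.symm

/-- An embedded model is the plane spanned by the images of two of its lines. -/
theorem isomorphic_of_embedding (hD : IsThreeTranspositionGroup D) {P : Type*} (M : Set (Set P))
    (g : P → D) (hg : Function.Injective g) (op : P → P → P)
    (hline : ∀ k ∈ M, ∀ p ∈ k, ∀ q ∈ k, p ≠ q → k = {p, q, op p q} ∧ ¬ Commute (g p : G) (g q))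
    (hpair : ∀ p q, ¬ Commute (g p : G) (g q) → ∃ k ∈ M, p ∈ k ∧ q ∈ k)
    (hop : ∀ p q, ¬ Commute (g p : G) (g q) →
      (g (op p q) : G) = (g q : G) * (g p : G) * (g q : G)⁻¹)
    (hM : ∀ k ∈ M, ∃ p ∈ k, ∃ q ∈ k, p ≠ q) {l₀ m₀ : Set P}
    (hgen : ∀ T : Set P, l₀ ∪ m₀ ⊆ T → LineSystem.IsSubspace M T → T = Set.univ) :
    LineSystem.Isomorphic
      (LineSystem.restrict (threeTranspositionLines D)
        (LineSystem.span (threeTranspositionLines D) (g '' l₀ ∪ g '' m₀))) M := by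
  set L := threeTranspositionLines D
  have himg : ∀ k ∈ M, g '' k ∈ L := by
    intro k hk
    obtain ⟨p, hp, q, hq, hpq⟩ := hM k hk
    obtain ⟨hk', hnc⟩ := hline k hk p hp q hq hpq
    refine ⟨g p, g q, hnc, ?_⟩
    rw [hk', Set.image_insert_eq, Set.image_pair]
    ext z
    simp only [Set.mem_insert_iff, Set.mem_singleton_iff, Set.mem_setOf_eq, ← hop p q hnc,
      Subtype.ext_iff]
  have hlines : ∀ k ∈ L, k ⊆ Set.range g → ∃ k' ∈ M, k = g '' k' := by
    intro k hk hks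
    obtain ⟨x, y, hxy, rfl⟩ := id hk
    obtain ⟨p, rfl⟩ := hks (left_mem_lineOf x y)
    obtain ⟨q, rfl⟩ := hks (right_mem_lineOf (g p) y)
    obtain ⟨k', hk', hp, hq⟩ := hpair p q hxy
    exact ⟨k', hk', ((line_eq_lineOf hD (himg k' hk') ⟨p, hp, rfl⟩ ⟨q, hq, rfl⟩
      fun e => hxy (by rw [e])).2).symm⟩
  have hsub : LineSystem.IsSubspace L (Set.range g) := by
    rintro k hk _ ⟨p, rfl⟩ _ ⟨q, rfl⟩ hne hpk hqk
    obtain ⟨hnc, hke⟩ := line_eq_lineOf hD hk hpk hqk hne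
    obtain ⟨k', hk', hp, hq⟩ := hpair p q hnc
    have h2 := (line_eq_lineOf hD (himg k' hk') ⟨p, hp, rfl⟩ ⟨q, hq, rfl⟩ hne).2
    rw [hke, ← h2]
    exact Set.image_subset_range _ _
  have hspan : LineSystem.span L (g '' l₀ ∪ g '' m₀) = Set.range g := by
    refine Set.Subset.antisymm (Set.sInter_subset_of_mem ⟨?_, hsub⟩) ?_
    · exact Set.union_subset (Set.image_subset_range _ _) (Set.image_subset_range _ _)
    · intro z hz T hT
      obtain ⟨p, rfl⟩ := hz
      have : g ⁻¹' T = Set.univ := by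
        refine hgen _ ?_ ?_
        · rw [← Set.image_subset_iff, Set.image_union]; exact hT.1
        · intro k hk a ha b hb hab hak hbk c hc
          exact hT.2 _ (himg k hk) (g a) ha (g b) hb (hg.ne hab) ⟨a, hak, rfl⟩ ⟨b, hbk, rfl⟩
            ⟨c, hc, rfl⟩
      exact (Set.ext_iff.1 this p).2 trivial
  rw [hspan]
  refine ⟨(Equiv.ofInjective g hg).symm, fun s => ⟨?_, ?_⟩⟩
  · rintro ⟨k, hk, hks, rfl⟩
    obtain ⟨k', hk', rfl⟩ := hlines k hk hks
    convert hk' using 1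
    ext p
    constructor
    · rintro ⟨w, ⟨q, hq, hqw⟩, rfl⟩
      have : w = Equiv.ofInjective g hg q := Subtype.ext hqw.symm
      rw [this, Equiv.symm_apply_apply]; exact hq
    · intro hp
      exact ⟨Equiv.ofInjective g hg p, ⟨p, hp, rfl⟩, Equiv.symm_apply_apply _ _⟩
  · intro hs
    refine ⟨g '' ((Equiv.ofInjective g hg).symm '' s), himg _ hs, Set.image_subset_range _ _, ?_⟩
    ext w
    constructor
    · intro hw
      exact ⟨_, ⟨w, hw, rfl⟩, Equiv.apply_ofInjective_symm hg w⟩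
    · rintro ⟨_, ⟨w', hw', rfl⟩, e⟩
      rw [Equiv.apply_ofInjective_symm hg w'] at e
      rwa [← (Subtype.ext e : w' = w)]

end Group

end Cfsg.Agent.FGS3.FS
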