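import Mathlib

/-!
Two commuting involutions normalising a subgroup of odd order: the formula of Brauer and Wielandt.
-/

set_option autoImplicit false

namespace Cfsg.Agent.FGS3.OddAct

variable {G : Type*} [Group G]

theorem sqrt_unique {N : ℕ} (hN : Odd N) {x y : G} (hx : x ^ N = 1) (hy : y ^ N = 1)
    (h : x * x = y * y) : x = y := by
  obtain ⟨m, hm⟩ := hN
  have key : ∀ z : G, z ^ N = 1 → (z * z) ^ (m + 1) = z := fun z hz => by
    rw [← pow_two, ← pow_mul, show 2 * (m + 1) = N + 1 by omega, pow_succ, hz, one_mul]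
  rw [← key x hx, ← key y hy, h]

variable (H : Subgroup G) (hH : Odd (Nat.card H))
include hH

theorem pow_card {x : G} (hx : x ∈ H) : x ^ Nat.card H = 1 := by
  exact congrArg Subtype.val (pow_card_eq_one' (x := (⟨x, hx⟩ : H)))

theorem unique {x y : G} (hx : x ∈ H) (hy : y ∈ H) (h : x * x = y * y) : x = y :=
  sqrt_unique hH (pow_card H hH hx) (pow_card H hH hy) h

theorem exists_sqrt {K : Subgroup G} {x : G} (hx : x ∈ H) (hxK : x ∈ K) :
    ∃ r : G, r ∈ H ∧ r ∈ K ∧ r * r = x ∧ ∀ u : G, u * u = 1 → u * x * u = x⁻¹ → u * r * u = r⁻¹ := by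
  have hpow := pow_card H hH hx
  obtain ⟨m, hm⟩ := hH
  refine ⟨x ^ (m + 1), H.pow_mem hx _, K.pow_mem hxK _, ?_, fun u hu hux => ?_⟩
  · rw [← pow_add, show m + 1 + (m + 1) = Nat.card H + 1 by omega, pow_succ, hpow, one_mul]
  · have hu' : u⁻¹ = u := inv_eq_of_mul_eq_one_right hu
    have h2 := conj_pow (i := m + 1) (a := u) (b := x)
    rw [hu', hux, inv_pow] at h2
    exact h2.symm

/-- The elements of `H` inverted by an involution form a transversal of its centraliser. -/
theorem card_inverted {a : G} (ha : a * a = 1) (hn : ∀ h ∈ H, a * h * a ∈ H) :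
    Nat.card {h : G // h ∈ H ∧ a * h * a = h⁻¹} * Nat.card {h : G // h ∈ H ∧ a * h = h * a}
      = Nat.card H := by
  rw [← Nat.card_prod]
  have haa : ∀ w, a * (a * w) = w := fun w => by rw [← mul_assoc, ha, one_mul]
  have hai : a⁻¹ = a := inv_eq_of_mul_eq_one_right ha
  refine Nat.card_eq_of_bijective
    (fun p : {h : G // h ∈ H ∧ a * h * a = h⁻¹} × {h : G // h ∈ H ∧ a * h = h * a} =>
      (⟨p.1.1 * p.2.1, H.mul_mem p.1.2.1 p.2.2.1⟩ : H)) ⟨?_, ?_⟩
  · rintro ⟨⟨i, hi, hia⟩, ⟨c, hc, hca⟩⟩ ⟨⟨i', hi', hia'⟩, ⟨c', hc', hca'⟩⟩ h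
    have h1 : i * c = i' * c' := congrArg Subtype.val h
    have h2 : ∀ j d : G, a * j * a = j⁻¹ → a * d = d * a → j * d * (a * (j * d) * a)⁻¹ = j * j := by
      intro j d hj hd
      have : a * (j * d) * a = j⁻¹ * d := by
        calc a * (j * d) * a = (a * j * a) * (a * d * a) := by
              simp only [mul_assoc, haa]
          _ = j⁻¹ * d := by rw [hj, hd, mul_assoc d, ha, mul_one]
      rw [this]; group
    have h3 : i * i = i' * i' := by rw [← h2 i c hia hca, ← h2 i' c' hia' hca', h1]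
    have h4 := unique H hH hi hi' h3
    subst h4
    have h5 := mul_left_cancel h1
    subst h5
    rfl
  · rintro ⟨h, hh⟩
    set x := h * (a * h * a)⁻¹ with hxdef
    have hx : x ∈ H := H.mul_mem hh (H.inv_mem (hn h hh))
    have hxa : a * x * a = x⁻¹ := by
      simp only [hxdef, mul_inv_rev, inv_inv, hai, mul_assoc, ha, mul_one]
    obtain ⟨r, hr, -, hrr, hinv⟩ := exists_sqrt H hH (K := ⊤) hx (Subgroup.mem_top _)
    have hra := hinv a ha hxa
    refine ⟨⟨⟨r, hr, hra⟩, ⟨r⁻¹ * h, H.mul_mem (H.inv_mem hr) hh, ?_⟩⟩,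
      Subtype.ext (mul_inv_cancel_left r h)⟩
    have h6 : a * r⁻¹ * a = r := by
      have := congrArg Inv.inv hra
      simpa [mul_inv_rev, hai, mul_assoc] using this
    have h7 : a * h * a = r⁻¹ * r⁻¹ * h := by
      rw [← mul_inv_rev, hrr, hxdef]; group
    calc a * (r⁻¹ * h) = (a * r⁻¹ * a) * (a * h * a) * a := by
          simp only [mul_assoc, haa, ha, mul_one]
      _ = r⁻¹ * h * a := by rw [h6, h7]; group

/-- The elements inverted by `a` split along a second commuting involution. -/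
theorem card_inverted_split {a b : G} (ha : a * a = 1) (hb : b * b = 1) (hab : a * b = b * a)
    (hnb : ∀ h ∈ H, b * h * b ∈ H) :
    Nat.card {h : G // h ∈ H ∧ a * h * a = h⁻¹} =
      Nat.card {h : G // h ∈ H ∧ a * h * a = h⁻¹ ∧ b * h * b = h} *
      Nat.card {h : G // h ∈ H ∧ a * h * a = h⁻¹ ∧ b * h * b = h⁻¹} := by
  rw [← Nat.card_prod]
  symm
  have haa : ∀ w, a * (a * w) = w := fun w => by rw [← mul_assoc, ha, one_mul]
  have hbb : ∀ w, b * (b * w) = w := fun w => by rw [← mul_assoc, hb, one_mul]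
  have hai : a⁻¹ = a := inv_eq_of_mul_eq_one_right ha
  have hbi : b⁻¹ = b := inv_eq_of_mul_eq_one_right hb
  have hmul : ∀ c x y : G, c * c = 1 → c * (x * y) * c = (c * x * c) * (c * y * c) := by
    intro c x y hc
    simp only [mul_assoc]
    rw [← mul_assoc c c, hc, one_mul]
  -- the equation for the square of the fixed part
  have hsol : ∀ x v v' y : G, x ∈ H → v ∈ H → v' ∈ H → v * x⁻¹ * v = y → v' * x⁻¹ * v' = y → v = v' := by
    intro x v v' y hx hv hv' h1 h2
    have h3 : (v * x⁻¹) * (v * x⁻¹) = (v' * x⁻¹) * (v' * x⁻¹) := by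
      rw [← mul_assoc, ← mul_assoc, h1, h2]
    exact mul_right_cancel (unique H hH (H.mul_mem hv (H.inv_mem hx)) (H.mul_mem hv' (H.inv_mem hx)) h3)
  refine Nat.card_eq_of_bijective
    (fun p : {h : G // h ∈ H ∧ a * h * a = h⁻¹ ∧ b * h * b = h} ×
        {h : G // h ∈ H ∧ a * h * a = h⁻¹ ∧ b * h * b = h⁻¹} =>
      (⟨p.1.1 * p.2.1 * p.1.1, H.mul_mem (H.mul_mem p.1.2.1 p.2.2.1) p.1.2.1, by
        rw [hmul a _ _ ha, hmul a _ _ ha, p.1.2.2.1, p.2.2.2.1]; group⟩ :
        {h : G // h ∈ H ∧ a * h * a = h⁻¹})) ⟨?_, ?_⟩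
  · rintro ⟨⟨u, hu, hua, hub⟩, ⟨w, hw, hwa, hwb⟩⟩ ⟨⟨u', hu', hua', hub'⟩, ⟨w', hw', hwa', hwb'⟩⟩ h
    have h1 : u * w * u = u' * w' * u' := congrArg Subtype.val h
    have e : ∀ j k : G, b * j * b = j → b * k * b = k⁻¹ →
        (j * j) * (j * k * j)⁻¹ * (j * j) = b * (j * k * j) * b := by
      intro j k hj hk
      rw [hmul b _ _ hb, hmul b _ _ hb, hj, hk]; group
    have h2 : u * u = u' * u' := hsol (u * w * u) _ _ _ (H.mul_mem (H.mul_mem hu hw) hu)
      (H.mul_mem hu hu) (H.mul_mem hu' hu') (e u w hub hwb) (by rw [h1]; exact e u' w' hub' hwb')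
    have h3 := unique H hH hu hu' h2
    subst h3
    have h5 : w = w' := mul_left_cancel (mul_right_cancel h1)
    subst h5
    rfl
  · rintro ⟨x, hx, hxa⟩
    set y := b * x * b with hydef
    have hy : y ∈ H := hnb x hx
    have hya : a * y * a = y⁻¹ := by
      have e1 : a * y * a = b * (a * x * a) * b := by
        calc a * y * a = (a * b) * x * (b * a) := by simp only [hydef, mul_assoc]
          _ = (b * a) * x * (a * b) := by rw [hab]
          _ = b * (a * x * a) * b := by simp only [mul_assoc]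
      rw [e1, hxa, hydef]
      simp only [mul_inv_rev, hbi, mul_assoc]
    obtain ⟨r, hr, -, hrr, -⟩ := exists_sqrt H hH (K := ⊤) (H.mul_mem hy (H.inv_mem hx)) (Subgroup.mem_top _)
    set v := r * x with hvdef
    have hv : v ∈ H := H.mul_mem hr hx
    have hveq : v * x⁻¹ * v = y := by
      rw [hvdef, show r * x * x⁻¹ * (r * x) = r * r * x by group, hrr]; group
    have hvb : b * v * b = v := by
      refine hsol x _ _ y hx (hnb v hv) hv ?_ hveq
      have e2 : v⁻¹ * x * v⁻¹ = y⁻¹ := by rw [← hveq]; group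
      have e3 : v * y⁻¹ * v = x := by rw [← e2]; group
      have e4 : (b * v * b) * x⁻¹ * (b * v * b) = b * (v * y⁻¹ * v) * b := by
        simp only [hydef, mul_inv_rev, hbi, mul_assoc, hbb]
      rw [e4, e3]
    have hva : a * v * a = v⁻¹ := by
      have e2 : v⁻¹ * x * v⁻¹ = y⁻¹ := by rw [← hveq]; group
      have e5 : (a * v * a) * x * (a * v * a) = y⁻¹ := by
        have : (a * v * a) * x * (a * v * a) = a * (v * (a * x * a) * v) * a := by
          simp only [mul_assoc, haa]
        rw [this, hxa, hveq, hya]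
      have hmem : a * v * a ∈ H := by
        have e6 : a * v * a = (a * r * a) * (a * x * a) := hmul a r x ha
        have hrinv : a * (r * r) * a = (a * r * a) * (a * r * a) := hmul a r r ha
        obtain ⟨m, hm⟩ := id hH
        have hr' : r = (r * r) ^ (m + 1) := by
          rw [← pow_two, ← pow_mul, show 2 * (m + 1) = Nat.card H + 1 by omega, pow_succ,
            pow_card H hH hr, one_mul]
        have h8 := conj_pow (i := m + 1) (a := a) (b := r * r)
        rw [hai, ← hr'] at h8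
        rw [e6, ← h8, hrr, hmul a y x⁻¹ ha, hya, show a * x⁻¹ * a = x by
          have := congrArg Inv.inv hxa
          simpa [mul_inv_rev, hai, mul_assoc] using this, hxa]
        exact H.mul_mem (H.pow_mem (H.mul_mem (H.inv_mem hy) hx) _) (H.inv_mem hx)
      have h9 := hsol x⁻¹ (a * v * a) v⁻¹ y⁻¹ (H.inv_mem hx) hmem (H.inv_mem hv)
        (by rw [inv_inv]; exact e5) (by rw [inv_inv]; exact e2)
      exact h9
    obtain ⟨u, hu, -, huu, huinv⟩ := exists_sqrt H hH (K := ⊤) hv (Subgroup.mem_top _)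
    have hua := huinv a ha hva
    have hub : b * u * b = u := by
      refine unique H hH (hnb u hu) hu ?_
      rw [← hmul b u u hb, huu, hvb]
    refine ⟨⟨⟨u, hu, hua, hub⟩, ⟨u⁻¹ * x * u⁻¹, H.mul_mem (H.mul_mem (H.inv_mem hu) hx) (H.inv_mem hu),
      ?_, ?_⟩⟩, Subtype.ext (by group)⟩
    · have h6 : a * u⁻¹ * a = u := by
        have := congrArg Inv.inv hua
        simpa [mul_inv_rev, hai, mul_assoc] using this
      rw [hmul a _ _ ha, hmul a _ _ ha, h6, hxa]; group
    · have h6 : b * u⁻¹ * b = u⁻¹ := by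
        have := congrArg Inv.inv hub
        simpa [mul_inv_rev, hbi, mul_assoc] using this
      have e2 : v * y⁻¹ * v = x := by rw [← hveq]; group
      rw [hmul b _ _ hb, hmul b _ _ hb, h6]
      show u⁻¹ * y * u⁻¹ = (u⁻¹ * x * u⁻¹)⁻¹
      rw [← hveq, ← huu]; group

/-- The formula of Brauer and Wielandt for a four-group acting on a group of odd order. -/
theorem card_mul_card_centralizer_sq {a b z : G} (ha : a * a = 1) (hb : b * b = 1)
    (hab : a * b = b * a) (hz : a * b = z) (hna : ∀ h ∈ H, a * h * a ∈ H)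
    (hnb : ∀ h ∈ H, b * h * b ∈ H) :
    Nat.card H * Nat.card {h : G // h ∈ H ∧ a * h = h * a ∧ b * h = h * b} ^ 2 =
      Nat.card {h : G // h ∈ H ∧ a * h = h * a} * Nat.card {h : G // h ∈ H ∧ b * h = h * b} *
        Nat.card {h : G // h ∈ H ∧ z * h = h * z} := by
  have hfix : ∀ c h : G, c * c = 1 → (c * h = h * c ↔ c * h * c = h) := fun c h hc => by
    constructor
    · intro e; rw [e, mul_assoc, hc, mul_one]
    · intro e; conv_rhs => rw [← e]
      rw [mul_assoc _ c c, hc, mul_one]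
  have hai : a⁻¹ = a := inv_eq_of_mul_eq_one_right ha
  have hzz : z * z = 1 := by rw [← hz]; nth_rw 2 [hab]; rw [mul_assoc, ← mul_assoc b b, hb, one_mul, ha]
  have hzh : ∀ h, z * h * z = a * (b * h * b) * a := fun h => by
    rw [← hz]; nth_rw 2 [hab]; simp only [mul_assoc]
  have hmem2 : ∀ c : G, ∀ h : G, (h ∈ H ⊓ Subgroup.centralizer {c}) ↔ h ∈ H ∧ c * h = h * c := by
    intro c h
    rw [Subgroup.mem_inf, Subgroup.mem_centralizer_singleton_iff]
    exact and_congr_right' eq_comm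
  have hsub : ∀ c : G, c * a = a * c → Odd (Nat.card ↥(H ⊓ Subgroup.centralizer {c})) ∧
      ∀ h ∈ H ⊓ Subgroup.centralizer {c}, a * h * a ∈ H ⊓ Subgroup.centralizer {c} := by
    intro c hca
    refine ⟨hH.of_dvd_nat (Subgroup.card_dvd_of_le inf_le_left), fun h hh => ?_⟩
    rw [hmem2] at hh ⊢
    refine ⟨hna h hh.1, ?_⟩
    calc c * (a * h * a) = a * (c * h) * a := by
          simp only [← mul_assoc]; rw [hca]
      _ = a * h * a * c := by
          rw [hh.2]; simp only [mul_assoc]; rw [hca]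
  have hzc : z * a = a * z := by rw [← hz, mul_assoc, ← hab, ← mul_assoc]
  have h1 := card_inverted H hH ha hna
  have h2 := card_inverted_split H hH ha hb hab hnb
  obtain ⟨hbo, hbn⟩ := hsub b hab.symm
  obtain ⟨hzo, hzn⟩ := hsub z hzc
  have h3 := card_inverted _ hbo ha hbn
  have h4 := card_inverted _ hzo ha hzn
  have e1 : Nat.card ↥(H ⊓ Subgroup.centralizer {b}) = Nat.card {h : G // h ∈ H ∧ b * h = h * b} :=
    Nat.card_congr (Equiv.subtypeEquivRight (hmem2 b))
  have e2 : Nat.card ↥(H ⊓ Subgroup.centralizer {z}) = Nat.card {h : G // h ∈ H ∧ z * h = h * z} :=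
    Nat.card_congr (Equiv.subtypeEquivRight (hmem2 z))
  have e3 : Nat.card {h : G // h ∈ H ⊓ Subgroup.centralizer {b} ∧ a * h * a = h⁻¹} =
      Nat.card {h : G // h ∈ H ∧ a * h * a = h⁻¹ ∧ b * h * b = h} :=
    Nat.card_congr (Equiv.subtypeEquivRight fun h => by rw [hmem2, ← hfix b h hb]; tauto)
  have e4 : Nat.card {h : G // h ∈ H ⊓ Subgroup.centralizer {b} ∧ a * h = h * a} =
      Nat.card {h : G // h ∈ H ∧ a * h = h * a ∧ b * h = h * b} :=
    Nat.card_congr (Equiv.subtypeEquivRight fun h => by rw [hmem2]; tauto)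
  have e5 : Nat.card {h : G // h ∈ H ⊓ Subgroup.centralizer {z} ∧ a * h * a = h⁻¹} =
      Nat.card {h : G // h ∈ H ∧ a * h * a = h⁻¹ ∧ b * h * b = h⁻¹} :=
    Nat.card_congr (Equiv.subtypeEquivRight fun h => by
      rw [hmem2, hfix z h hzz, hzh]
      constructor
      · rintro ⟨⟨hh, hz'⟩, hi⟩
        refine ⟨hh, hi, ?_⟩
        have : b * h * b = a * h * a := by
          conv_rhs => rw [← hz']
          simp only [mul_assoc, ← mul_assoc a a, ha, one_mul, mul_one]
        rw [this, hi]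
      · rintro ⟨hh, hi, hb'⟩
        refine ⟨⟨hh, ?_⟩, hi⟩
        rw [hb']
        have := congrArg Inv.inv hi
        simpa [mul_inv_rev, hai, mul_assoc] using this)
  have e6 : Nat.card {h : G // h ∈ H ⊓ Subgroup.centralizer {z} ∧ a * h = h * a} =
      Nat.card {h : G // h ∈ H ∧ a * h = h * a ∧ b * h = h * b} :=
    Nat.card_congr (Equiv.subtypeEquivRight fun h => by
      rw [hmem2, hfix z h hzz, hzh, hfix a h ha, hfix b h hb]
      constructor
      · rintro ⟨⟨hh, hz'⟩, hc⟩
        refine ⟨hh, hc, ?_⟩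
        calc b * h * b = a * (a * (b * h * b) * a) * a := by
              simp only [mul_assoc, ← mul_assoc a a, ha, one_mul, mul_one]
          _ = h := by rw [hz', hc]
      · rintro ⟨hh, hc, hb'⟩
        exact ⟨⟨hh, by rw [hb', hc]⟩, hc⟩)
  rw [e3, e4, e1] at h3
  rw [e5, e6, e2] at h4
  set W := Nat.card {h : G // h ∈ H ∧ a * h = h * a ∧ b * h = h * b}
  rw [← h3, ← h4, ← h1, h2]
  ring

end Cfsg.Agent.FGS3.OddAct
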