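import Cfsg.Agent.FGS3.FourGroupOdd

/-!
Four-transitive groups in which the stabiliser of four points has odd order (M. Hall).

With the involutions `a = (12)(3)(4)...`, `b = (1)(2)(34)...` and `z = ab`, counting the
centralisers and comparing two applications of the formula of Brauer and Wielandt leaves
only the degree eleven.
-/

set_option autoImplicit false
set_option linter.unusedSectionVars false

namespace Cfsg.Agent.FGS3.FourOdd

open MulAction Finset

variable {G α : Type*} [Group G] [MulAction G α]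

/-- `g` induces `π` on the quadruple `q`. -/
def Pat (g : G) (q : Fin 4 ↪ α) (π : Fin 4 → Fin 4) : Prop := ∀ i, g • q i = q (π i)

abbrev pA : Fin 4 → Fin 4 := ![1, 0, 2, 3]
abbrev pB : Fin 4 → Fin 4 := ![0, 1, 3, 2]
abbrev pZ : Fin 4 → Fin 4 := ![1, 0, 3, 2]
abbrev pE : Fin 4 → Fin 4 := ![2, 3, 0, 1]
abbrev pF : Fin 4 → Fin 4 := ![3, 2, 1, 0]

theorem mem_stab {g : G} {q : Fin 4 ↪ α} : g ∈ stabilizer G q ↔ ∀ i, g • q i = q i := by
  rw [mem_stabilizer_iff, DFunLike.ext_iff]; rfl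

theorem pat_conj {u : G} {q : Fin 4 ↪ α} {π : Fin 4 → Fin 4} (h : Pat u q π) (g : G) :
    Pat (g * u * g⁻¹) (g • q) π := fun i => by
  show (g * u * g⁻¹) • g • q i = g • q (π i)
  rw [← mul_smul, inv_mul_cancel_right, mul_smul, h i]

theorem pat_mul {u v : G} {q : Fin 4 ↪ α} {π σ : Fin 4 → Fin 4} (hu : Pat u q π) (hv : Pat v q σ) :
    Pat (u * v) q (fun i => π (σ i)) := fun i => by rw [mul_smul, hv i, hu (σ i)]

theorem conj_mem_stab {u : G} (hu : u * u = 1) {q : Fin 4 ↪ α} {π : Fin 4 → Fin 4}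
    (hpu : Pat u q π) : ∀ h ∈ stabilizer G q, u * h * u ∈ stabilizer G q := by
  intro h hh
  rw [mem_stab] at hh ⊢
  intro i
  rw [mul_smul, mul_smul, hpu i, hh, ← hpu i, ← mul_smul, hu, one_smul]

/-- The part of the stabiliser of `q` commuting with `u`. -/
abbrev St1 (u : G) (q : Fin 4 ↪ α) := {h : G // h ∈ stabilizer G q ∧ u * h = h * u}

/-- The part of the stabiliser of `q` commuting with `u` and `v`. -/
abbrev St2 (u v : G) (q : Fin 4 ↪ α) :=
  {h : G // h ∈ stabilizer G q ∧ u * h = h * u ∧ v * h = h * v}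

theorem card_St2_conj (g u v : G) (q : Fin 4 ↪ α) :
    Nat.card (St2 (g * u * g⁻¹) (g * v * g⁻¹) (g • q)) = Nat.card (St2 u v q) := by
  symm
  refine Nat.card_congr ((MulAut.conj g).toEquiv.subtypeEquiv fun h => ?_)
  have hc : ∀ w : G, (g * w * g⁻¹) * (g * h * g⁻¹) = g * (w * h) * g⁻¹ := fun w => by group
  have hc' : ∀ w : G, (g * h * g⁻¹) * (g * w * g⁻¹) = g * (h * w) * g⁻¹ := fun w => by group
  show _ ↔ g * h * g⁻¹ ∈ stabilizer G (g • q) ∧ _ = (g * h * g⁻¹) * _ ∧ _ = (g * h * g⁻¹) * _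
  simp only [MulEquiv.toEquiv_eq_coe, EquivLike.coe_coe, MulAut.conj_apply, hc, hc',
    mul_left_inj, mul_right_inj]
  refine and_congr_left' ?_
  rw [mem_stabilizer_iff, mem_stabilizer_iff, mul_smul, mul_smul, inv_smul_smul, smul_left_cancel_iff]

variable [Fintype α] [DecidableEq α]

theorem orbit_pattern_card {K : Subgroup G} (q : Fin 4 ↪ α) (S : Finset (Fin 4 ↪ α))
    (hS : ∀ q', q' ∈ S ↔ ∃ g ∈ K, g • q = q') :
    Nat.card K = S.card * Nat.card {h : G // h ∈ stabilizer G q ∧ h ∈ K} := by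
  have h1 : (stabilizer K q).index = Nat.card (orbit K q) :=
    (index_stabilizer K q).trans (Nat.card_coe_set_eq _).symm
  have h2 : orbit K q = (S : Set (Fin 4 ↪ α)) := by
    ext q'
    rw [mem_orbit_iff, Finset.mem_coe, hS]
    exact ⟨fun ⟨g, hg⟩ => ⟨g, g.2, hg⟩, fun ⟨g, hg, h⟩ => ⟨⟨g, hg⟩, h⟩⟩
  have h3 : Nat.card (stabilizer K q) = Nat.card {h : G // h ∈ stabilizer G q ∧ h ∈ K} :=
    Nat.card_congr
      { toFun := fun h => ⟨(h : K).1, mem_stabilizer_iff.2 (mem_stabilizer_iff.1 h.2), (h : K).2⟩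
        invFun := fun h => ⟨⟨h.1, h.2.2⟩, mem_stabilizer_iff.2 (mem_stabilizer_iff.1 h.2.1)⟩
        left_inv := fun _ => rfl
        right_inv := fun _ => rfl }
  rw [← (stabilizer K q).index_mul_card, h1, h3, h2, Nat.card_coe_set_eq, Set.ncard_coe_finset]

/-- The fixed points. -/
def fixed (g : G) : Finset α := univ.filter fun x => g • x = x

theorem mem_fixed {g : G} {x : α} : x ∈ fixed g ↔ g • x = x := by simp [fixed]

/-- A quadruple from four different points. -/
def quad (x y p r : α) (h : [x, y, p, r].Nodup) : Fin 4 ↪ α :=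
  ⟨fun i => [x, y, p, r].get i, List.nodup_iff_injective_get.1 h⟩

theorem mul_self_smul {g : G} (hg : g * g = 1) (x : α) : g • g • x = x := by
  rw [← mul_smul, hg, one_smul]

theorem quad_nodup_iff {x y p r : α} :
    [x, y, p, r].Nodup ↔ x ≠ y ∧ x ≠ p ∧ x ≠ r ∧ y ≠ p ∧ y ≠ r ∧ p ≠ r := by
  simp only [List.nodup_cons, List.mem_cons, List.not_mem_nil, or_false, not_or, List.nodup_nil,
    and_true, not_false_eq_true]
  tauto

variable [Finite G] (h4 : IsMultiplyPretransitive G α 4)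
  (hodd : ∀ q : Fin 4 ↪ α, Odd (Nat.card (stabilizer G q)))
include hodd

/-- An element inducing an involution on four points gives an involution doing the same. -/
theorem make_involution {K : Subgroup G} {q : Fin 4 ↪ α} {π : Fin 4 → Fin 4}
    (hπ : ∀ i, π (π i) = i) {g : G} (hg : g ∈ K) (hp : Pat g q π) :
    ∃ u ∈ K, u * u = 1 ∧ Pat u q π ∧
      ∀ v w : G, g * v * g⁻¹ = w → g * w * g⁻¹ = v → u * v * u⁻¹ = w := by
  have hgg : g * g ∈ stabilizer G q := mem_stab.2 fun i => by rw [mul_smul, hp, hp, hπ]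
  have ho : Odd (orderOf (g * g)) := (hodd q).of_dvd_nat (Subgroup.orderOf_dvd_natCard _ hgg)
  obtain ⟨m, hm⟩ := ho
  refine ⟨g * (g * g) ^ m, K.mul_mem hg (K.pow_mem (K.mul_mem hg hg) m), ?_, fun i => ?_, ?_⟩
  · have hc : Commute g ((g * g) ^ m) := ((Commute.refl g).mul_right (Commute.refl g)).pow_right m
    calc g * (g * g) ^ m * (g * (g * g) ^ m) = (g * g) * ((g * g) ^ m * (g * g) ^ m) := by
          rw [mul_assoc, ← mul_assoc _ g, ← hc.eq]; simp only [mul_assoc]
      _ = (g * g) ^ orderOf (g * g) := by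
          rw [← pow_add, ← pow_succ', show m + m + 1 = orderOf (g * g) by omega]
      _ = 1 := pow_orderOf_eq_one _
  · rw [mul_smul, mem_stab.1 ((stabilizer G q).pow_mem hgg m) i, hp]
  · intro v w h1 h2
    have h3 : Commute (g * g) v := by
      show g * g * v = v * (g * g)
      calc g * g * v = g * (g * v * g⁻¹) * g⁻¹ * (g * g) := by group
        _ = v * (g * g) := by rw [h1, h2]
    calc g * (g * g) ^ m * v * (g * (g * g) ^ m)⁻¹
        = g * ((g * g) ^ m * v * ((g * g) ^ m)⁻¹) * g⁻¹ := by group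
      _ = w := by rw [(h3.pow_left m).eq, mul_inv_cancel_right, h1]

/-- Involutions agreeing on four points are conjugate by an element fixing them. -/
theorem agree {K : Subgroup G} {q : Fin 4 ↪ α} {π : Fin 4 → Fin 4} {u u' : G}
    (hu : u * u = 1) (hu' : u' * u' = 1) (hK : u ∈ K) (hK' : u' ∈ K)
    (hp : Pat u q π) (hp' : Pat u' q π) :
    ∃ r : G, r ∈ stabilizer G q ∧ r ∈ K ∧ r * u * r⁻¹ = u' := by
  have hH : u * u' ∈ stabilizer G q := mem_stab.2 fun i => by
    rw [mul_smul, hp' i, ← hp i, mul_self_smul hu]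
  obtain ⟨s, hs, hsK, hss, hinv⟩ := OddAct.exists_sqrt (stabilizer G q) (hodd q) (K := K) hH
    (K.mul_mem hK hK')
  have hui : u⁻¹ = u := inv_eq_of_mul_eq_one_right hu
  have hui' : u'⁻¹ = u' := inv_eq_of_mul_eq_one_right hu'
  have h1 := hinv u hu (by rw [mul_inv_rev, hui, hui', ← mul_assoc u u, hu, one_mul])
  refine ⟨s⁻¹, Subgroup.inv_mem _ hs, Subgroup.inv_mem _ hsK, ?_⟩
  calc s⁻¹ * u * s⁻¹⁻¹ = (u * s * u) * u * s := by rw [h1, inv_inv]
    _ = u * (s * s) := by simp only [mul_assoc, ← mul_assoc u u, hu, one_mul]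
    _ = u' := by rw [hss, ← mul_assoc, hu, one_mul]

include h4

theorem exists_map (q q' : Fin 4 ↪ α) : ∃ g : G, g • q = q' := h4.exists_smul_eq q q'

/-- A centraliser of an involution is transitive on the quadruples with a given pattern. -/
theorem orbit_one {u : G} (hu : u * u = 1) {q q' : Fin 4 ↪ α} {π : Fin 4 → Fin 4}
    (hp : Pat u q π) (hp' : Pat u q' π) :
    ∃ g ∈ Subgroup.centralizer {u}, g • q = q' := by
  obtain ⟨g, rfl⟩ := exists_map h4 hodd q q'
  have h1 : Pat (g⁻¹ * u * g) q π := by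
    have := pat_conj hp' g⁻¹
    rwa [inv_inv, inv_smul_smul] at this
  have h2 : (g⁻¹ * u * g) * (g⁻¹ * u * g) = 1 := by
    rw [show (g⁻¹ * u * g) * (g⁻¹ * u * g) = g⁻¹ * (u * u) * g by group, hu]; group
  obtain ⟨r, hr, -, hru⟩ := agree hodd (K := ⊤) hu h2 (Subgroup.mem_top _) (Subgroup.mem_top _) hp h1
  refine ⟨g * r, Subgroup.mem_centralizer_singleton_iff.2 ?_, by
    rw [mul_smul, mem_stabilizer_iff.1 hr]⟩
  calc g * r * u = g * (r * u * r⁻¹) * r := by group
    _ = u * (g * r) := by rw [hru]; group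

theorem conj_of_pat {u v : G} (hu : u * u = 1) (hv : v * v = 1) {q q' : Fin 4 ↪ α}
    {π : Fin 4 → Fin 4} (hp : Pat u q π) (hp' : Pat v q' π) :
    ∃ g : G, g • q = q' ∧ g * u * g⁻¹ = v := by
  obtain ⟨g, rfl⟩ := exists_map h4 hodd q q'
  have h1 : Pat (g⁻¹ * v * g) q π := by
    have := pat_conj hp' g⁻¹
    rwa [inv_inv, inv_smul_smul] at this
  have h2 : (g⁻¹ * v * g) * (g⁻¹ * v * g) = 1 := by
    rw [show (g⁻¹ * v * g) * (g⁻¹ * v * g) = g⁻¹ * (v * v) * g by group, hv]; group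
  obtain ⟨r, hr, -, hru⟩ := agree hodd (K := ⊤) hu h2 (Subgroup.mem_top _) (Subgroup.mem_top _) hp h1
  exact ⟨g * r, by rw [mul_smul, mem_stabilizer_iff.1 hr],
    by rw [show g * r * u * (g * r)⁻¹ = g * (r * u * r⁻¹) * g⁻¹ by group, hru]; group⟩

/-- The same for two commuting involutions. -/
theorem conj_of_pat_two {u v u' v' : G} (hu : u * u = 1) (hv : v * v = 1) (hu' : u' * u' = 1)
    (hv' : v' * v' = 1) (huv : u * v = v * u) (huv' : u' * v' = v' * u') {q q' : Fin 4 ↪ α}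
    {π σ : Fin 4 → Fin 4} (hp : Pat u q π) (hp' : Pat u' q' π) (hs : Pat v q σ) (hs' : Pat v' q' σ) :
    ∃ g : G, g • q = q' ∧ g * u * g⁻¹ = u' ∧ g * v * g⁻¹ = v' := by
  obtain ⟨g, rfl, hgu⟩ := conj_of_pat h4 hodd hu hu' hp hp'
  have h1 : Pat (g⁻¹ * v' * g) q σ := by
    have := pat_conj hs' g⁻¹
    rwa [inv_inv, inv_smul_smul] at this
  have h2 : (g⁻¹ * v' * g) * (g⁻¹ * v' * g) = 1 := by
    rw [show (g⁻¹ * v' * g) * (g⁻¹ * v' * g) = g⁻¹ * (v' * v') * g by group, hv']; group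
  have hu_eq : u = g⁻¹ * u' * g := by rw [← hgu]; group
  obtain ⟨r, hr, hrK, hrv⟩ := agree hodd (K := Subgroup.centralizer {u}) hv h2
    (Subgroup.mem_centralizer_singleton_iff.2 huv.symm)
    (Subgroup.mem_centralizer_singleton_iff.2 (by
      rw [hu_eq]
      calc g⁻¹ * v' * g * (g⁻¹ * u' * g) = g⁻¹ * (v' * u') * g := by group
        _ = g⁻¹ * u' * g * (g⁻¹ * v' * g) := by rw [← huv']; group)) hs h1
  rw [Subgroup.mem_centralizer_singleton_iff] at hrK
  refine ⟨g * r, by rw [mul_smul, mem_stabilizer_iff.1 hr], ?_, ?_⟩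
  · rw [show g * r * u * (g * r)⁻¹ = g * (r * u * r⁻¹) * g⁻¹ by group, hrK, mul_inv_cancel_right, hgu]
  · rw [show g * r * v * (g * r)⁻¹ = g * (r * v * r⁻¹) * g⁻¹ by group, hrv]; group

theorem card_centralizer_pattern {u : G} (hu : u * u = 1) {q : Fin 4 ↪ α} {π : Fin 4 → Fin 4}
    (hp : Pat u q π) (S : Finset (Fin 4 ↪ α)) (hS : ∀ q', q' ∈ S ↔ Pat u q' π) :
    Nat.card (Subgroup.centralizer {u}) = S.card * Nat.card (St1 u q) := by
  rw [orbit_pattern_card (K := Subgroup.centralizer {u}) q S fun q' => ?_]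
  · congr 1
    exact Nat.card_congr (Equiv.subtypeEquivRight fun h =>
      and_congr_right' (Subgroup.mem_centralizer_singleton_iff.trans eq_comm))
  · rw [hS]
    refine ⟨fun h => orbit_one h4 hodd hu hp h, ?_⟩
    rintro ⟨g, hg, rfl⟩
    have h1 := pat_conj hp g
    rwa [Subgroup.mem_centralizer_singleton_iff.1 hg, mul_inv_cancel_right] at h1

theorem card_centralizer_pair {u v : G} (hu : u * u = 1) (hv : v * v = 1) (huv : u * v = v * u)
    {q : Fin 4 ↪ α} {π σ : Fin 4 → Fin 4}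
    (hp : Pat u q π) (hs : Pat v q σ) (S : Finset (Fin 4 ↪ α))
    (hS : ∀ q', q' ∈ S ↔ Pat u q' π ∧ Pat v q' σ) :
    Nat.card ↥(Subgroup.centralizer {u} ⊓ Subgroup.centralizer {v}) =
      S.card * Nat.card (St2 u v q) := by
  rw [orbit_pattern_card (K := Subgroup.centralizer {u} ⊓ Subgroup.centralizer {v}) q S fun q' => ?_]
  · congr 1
    exact Nat.card_congr (Equiv.subtypeEquivRight fun h =>
      and_congr_right' (by
        rw [Subgroup.mem_inf, Subgroup.mem_centralizer_singleton_iff,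
          Subgroup.mem_centralizer_singleton_iff]
        exact and_congr eq_comm eq_comm))
  · rw [hS]
    constructor
    · rintro ⟨h1, h2⟩
      obtain ⟨g, hg, hgu, hgv⟩ := conj_of_pat_two h4 hodd hu hv hu hv huv huv hp h1 hs h2
      exact ⟨g, ⟨Subgroup.mem_centralizer_singleton_iff.2 (mul_inv_eq_iff_eq_mul.1 hgu),
        Subgroup.mem_centralizer_singleton_iff.2 (mul_inv_eq_iff_eq_mul.1 hgv)⟩, hg⟩
    · rintro ⟨g, hg, rfl⟩
      rw [Subgroup.mem_inf, Subgroup.mem_centralizer_singleton_iff,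
        Subgroup.mem_centralizer_singleton_iff] at hg
      have h1 := pat_conj hp g
      have h2 := pat_conj hs g
      rw [hg.1, mul_inv_cancel_right] at h1
      rw [hg.2, mul_inv_cancel_right] at h2
      exact ⟨h1, h2⟩

omit h4 in
theorem smul_eq_self_of_odd {q : Fin 4 ↪ α} {w : G} (hw : w ∈ stabilizer G q) {x : α}
    (h : w • w • x = x) : w • x = x := by
  obtain ⟨m, hm⟩ := hodd q
  have h1 : ∀ k, (w * w) ^ k • x = x := fun k => by
    induction k with
    | zero => simp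
    | succ k ih => rw [pow_succ, mul_smul, mul_smul, h, ih]
  have h2 : (w * w) ^ (m + 1) = w := by
    rw [← pow_two, ← pow_mul, show 2 * (m + 1) = Nat.card (stabilizer G q) + 1 by omega, pow_succ,
      OddAct.pow_card (stabilizer G q) (hodd q) hw, one_mul]
  rw [← h2]; exact h1 _

end Cfsg.Agent.FGS3.FourOdd
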