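import Cfsg.Agent.FGS3.FourTransOdd

/-!
The degree of a four-transitive group with a four-point stabiliser of odd order, at least eight
points, is eleven.
-/

set_option autoImplicit false
set_option linter.unusedSectionVars false

namespace Cfsg.Agent.FGS3.FourOdd

open MulAction Finset

variable {G α : Type*} [Group G] [MulAction G α] [Fintype α] [DecidableEq α]

/-- A quadruple with its entries permuted. -/
def reorder (q : Fin 4 ↪ α) (σ : Fin 4 → Fin 4) (h : Function.Injective σ) : Fin 4 ↪ α :=
  ⟨fun i => q (σ i), q.injective.comp h⟩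

theorem pat_reorder {u : G} {q : Fin 4 ↪ α} {π π' σ : Fin 4 → Fin 4} (h : Function.Injective σ)
    (hp : Pat u q π) (hc : ∀ i, π (σ i) = σ (π' i)) : Pat u (reorder q σ h) π' := fun i => by
  show u • q (σ i) = q (σ (π' i))
  rw [hp, hc]

theorem stabilizer_reorder (q : Fin 4 ↪ α) {σ : Fin 4 → Fin 4} (h : Function.Injective σ) :
    stabilizer G (reorder q σ h) = stabilizer G q := by
  ext g
  rw [mem_stab, mem_stab]
  refine ⟨fun H i => ?_, fun H i => H (σ i)⟩
  obtain ⟨j, rfl⟩ := Finite.injective_iff_surjective.1 h i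
  exact H j

theorem card_St1_reorder (u : G) (q : Fin 4 ↪ α) {σ : Fin 4 → Fin 4} (h : Function.Injective σ) :
    Nat.card (St1 u (reorder q σ h)) = Nat.card (St1 u q) :=
  Nat.card_congr (Equiv.subtypeEquivRight fun g => by rw [stabilizer_reorder])

theorem card_fixed_conj (g u : G) : (fixed (α := α) (g * u * g⁻¹)).card = (fixed (α := α) u).card := by
  symm
  refine Finset.card_bij (fun x _ => g • x) (fun x hx => ?_) (fun x _ y _ h => (smul_left_cancel_iff g).1 h)
    (fun y hy => ⟨g⁻¹ • y, ?_, smul_inv_smul g y⟩)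
  · rw [mem_fixed] at hx ⊢
    rw [mul_smul, mul_smul, inv_smul_smul, hx]
  · rw [mem_fixed] at hy ⊢
    rw [mul_smul, mul_smul, smul_eq_iff_eq_inv_smul g] at hy
    exact hy

theorem card_centralizer_conj (g u : G) :
    Nat.card (Subgroup.centralizer {g * u * g⁻¹}) = Nat.card (Subgroup.centralizer {u}) := by
  symm
  refine Nat.card_congr ((MulAut.conj g).toEquiv.subtypeEquiv fun h => ?_)
  show h ∈ Subgroup.centralizer {u} ↔ g * h * g⁻¹ ∈ Subgroup.centralizer {g * u * g⁻¹}
  rw [Subgroup.mem_centralizer_singleton_iff, Subgroup.mem_centralizer_singleton_iff,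
    show g * h * g⁻¹ * (g * u * g⁻¹) = g * (h * u) * g⁻¹ by group,
    show g * u * g⁻¹ * (g * h * g⁻¹) = g * (u * h) * g⁻¹ by group, mul_left_inj, mul_right_inj]

theorem card_patA {u : G} (hu : u * u = 1) (S : Finset (Fin 4 ↪ α)) (hS : ∀ q', q' ∈ S ↔ Pat u q' pA) :
    S.card = (univ \ fixed (α := α) u).card * ((fixed (α := α) u).card * (fixed (α := α) u).card - (fixed (α := α) u).card) := by
  rw [← Finset.offDiag_card, ← Finset.card_product]
  symm
  refine Finset.card_bij (fun t ht => quad t.1 (u • t.1) t.2.1 t.2.2 ?_) (fun t ht => ?_)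
    (fun t _ t' _ h => ?_) (fun q hq => ?_)
  · simp only [Finset.mem_product, Finset.mem_sdiff, Finset.mem_univ, true_and, mem_fixed,
      Finset.mem_offDiag] at ht
    obtain ⟨hx, hp, hr, hpr⟩ := ht
    refine quad_nodup_iff.2 ⟨Ne.symm hx, ?_, ?_, ?_, ?_, hpr⟩
    · exact fun e => hx (e ▸ hp)
    · exact fun e => hx (e ▸ hr)
    · intro e; apply hx; rw [← e, mul_self_smul hu] at hp; exact hp.symm
    · intro e; apply hx; rw [← e, mul_self_smul hu] at hr; exact hr.symm
  · simp only [Finset.mem_product, Finset.mem_sdiff, Finset.mem_univ, true_and, mem_fixed,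
      Finset.mem_offDiag] at ht
    rw [hS]
    intro i
    fin_cases i
    · rfl
    · exact mul_self_smul hu t.1
    · exact ht.2.1
    · exact ht.2.2.1
  · exact Prod.ext (congrArg (fun q : Fin 4 ↪ α => q 0) h)
      (Prod.ext (congrArg (fun q : Fin 4 ↪ α => q 2) h) (congrArg (fun q : Fin 4 ↪ α => q 3) h))
  · rw [hS] at hq
    have h0 : u • q 0 = q 1 := hq 0
    have h2 : u • q 2 = q 2 := hq 2
    have h3 : u • q 3 = q 3 := hq 3
    refine ⟨(q 0, q 2, q 3), ?_, ?_⟩
    · simp only [Finset.mem_product, Finset.mem_sdiff, Finset.mem_univ, true_and, mem_fixed,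
        Finset.mem_offDiag]
      exact ⟨fun e => absurd (q.injective (h0.symm.trans e)) (by decide), h2, h3,
        q.injective.ne (by decide)⟩
    · refine Function.Embedding.ext fun i => ?_
      fin_cases i
      · rfl
      · exact h0
      · rfl
      · rfl

theorem card_patZ {u : G} (hu : u * u = 1) (S : Finset (Fin 4 ↪ α)) (hS : ∀ q', q' ∈ S ↔ Pat u q' pZ) :
    S.card = (univ \ fixed (α := α) u).card * ((univ \ fixed (α := α) u).card - 2) := by
  set M : Finset α := univ \ fixed u with hM
  have hMmem : ∀ x, x ∈ M ↔ u • x ≠ x := fun x => by simp [hM, mem_fixed]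
  have h1 : ∀ x ∈ M, (M \ {x, u • x}).card = M.card - 2 := by
    intro x hx
    have hx' := (hMmem x).1 hx
    rw [Finset.card_sdiff_of_subset, Finset.card_pair (Ne.symm hx')]
    intro y hy
    simp only [Finset.mem_insert, Finset.mem_singleton] at hy
    rcases hy with rfl | rfl
    · exact hx
    · rw [hMmem, mul_self_smul hu]; exact Ne.symm hx'
  have h2 : (M.sigma fun x => M \ {x, u • x}).card = M.card * (M.card - 2) := by
    rw [Finset.card_sigma, Finset.sum_congr rfl h1, Finset.sum_const, smul_eq_mul]
  rw [← h2]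
  symm
  refine Finset.card_bij (fun t ht => quad t.1 (u • t.1) t.2 (u • t.2) ?_) (fun t ht => ?_)
    (fun t _ t' _ h => ?_) (fun q hq => ?_)
  · simp only [Finset.mem_sigma, Finset.mem_sdiff, Finset.mem_insert, Finset.mem_singleton, not_or,
      hMmem] at ht
    obtain ⟨hx, hy, hyx, hyu⟩ := ht
    refine quad_nodup_iff.2 ⟨Ne.symm hx, Ne.symm hyx, ?_, Ne.symm hyu, ?_, Ne.symm hy⟩
    · intro e; exact hyu (by rw [e, mul_self_smul hu])
    · exact fun e => hyx ((smul_left_cancel_iff u).1 e.symm)
  · rw [hS]
    intro i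
    fin_cases i
    · rfl
    · exact mul_self_smul hu t.1
    · rfl
    · exact mul_self_smul hu t.2
  · exact Sigma.ext (congrArg (fun q : Fin 4 ↪ α => q 0) h)
      (heq_of_eq (congrArg (fun q : Fin 4 ↪ α => q 2) h))
  · rw [hS] at hq
    have h0 : u • q 0 = q 1 := hq 0
    have h2' : u • q 2 = q 3 := hq 2
    refine ⟨⟨q 0, q 2⟩, ?_, ?_⟩
    · simp only [Finset.mem_sigma, Finset.mem_sdiff, Finset.mem_insert, Finset.mem_singleton, not_or,
        hMmem, h0, h2']
      exact ⟨q.injective.ne (by decide), q.injective.ne (by decide), q.injective.ne (by decide),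
        q.injective.ne (by decide)⟩
    · refine Function.Embedding.ext fun i => ?_
      fin_cases i
      · rfl
      · exact h0
      · rfl
      · exact h2'

variable [Finite G]

set_option maxHeartbeats 1600000 in
/-- The degree is eleven and the order of the four-point stabiliser is a cube. -/
theorem degree_eleven [FaithfulSMul G α] (h4 : IsMultiplyPretransitive G α 4)
    (hodd : ∀ q : Fin 4 ↪ α, Odd (Nat.card (stabilizer G q))) (hn : 8 ≤ Fintype.card α)
    (q : Fin 4 ↪ α) : Fintype.card α = 11 ∧ ∃ X, Nat.card (stabilizer G q) = X ^ 3 := by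
  classical
  have hle : ∀ u : G, u * u = 1 → u ≠ 1 → (fixed (α := α) u).card ≤ 3 := by
    intro u hu hu1
    by_contra hc
    obtain ⟨s, hs, hsc⟩ := Finset.exists_subset_card_eq (s := fixed (α := α) u) (n := 4) (by omega)
    let x : Fin 4 ↪ α := (s.equivFinOfCardEq hsc).symm.toEmbedding.trans (Function.Embedding.subtype _)
    have hmem : u ∈ stabilizer G x := mem_stab.2 fun i =>
      mem_fixed.1 (hs ((s.equivFinOfCardEq hsc).symm i).2)
    exact hu1 (OddAct.unique _ (hodd x) hmem (Subgroup.one_mem _) (by rw [hu, one_mul]))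
  have hpar : ∀ u : G, u * u = 1 → (fixed (α := α) u).card % 2 = Fintype.card α % 2 := by
    intro u hu
    haveI : Fact (Nat.Prime 2) := ⟨Nat.prime_two⟩
    have h := Equiv.Perm.card_fixedPoints_modEq (p := 2) (n := 1) (f := ⇑(toPerm u : Equiv.Perm α))
      (by funext x; show u • u • x = x; exact mul_self_smul hu x)
    rw [h]
    congr 1
    rw [Fintype.card_ofFinset]
    rfl
  have hne : ∀ {u : G} {π : Fin 4 → Fin 4} {r : Fin 4 ↪ α}, Pat u r π → π 0 ≠ 0 ∨ π 2 ≠ 2 → u ≠ 1 := by
    intro u π r hp h e
    subst e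
    rcases h with h | h
    · have := hp 0; rw [one_smul] at this; exact h (r.injective this).symm
    · have := hp 2; rw [one_smul] at this; exact h (r.injective this).symm
  -- the involutions
  have iZ : Function.Injective pZ := by decide
  have iA : Function.Injective pA := by decide
  have iE : Function.Injective pE := by decide
  obtain ⟨g, hg⟩ := exists_map h4 hodd q (reorder q pZ iZ)
  obtain ⟨z, -, hz, pz, -⟩ := make_involution hodd (K := ⊤) (q := q) (π := pZ) (by decide)
    (Subgroup.mem_top g) (fun i => congrArg (fun r : Fin 4 ↪ α => r i) hg)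
  obtain ⟨g, hgz, hg⟩ := orbit_one h4 hodd hz pz (pat_reorder (π' := pZ) iA pz (by decide))
  obtain ⟨a, haz, ha, pa, -⟩ := make_involution hodd (K := Subgroup.centralizer {z}) (q := q) (π := pA)
    (by decide) hgz (fun i => congrArg (fun r : Fin 4 ↪ α => r i) hg)
  obtain ⟨g, hgz, hg⟩ := orbit_one h4 hodd hz pz (pat_reorder (π' := pZ) iE pz (by decide))
  obtain ⟨e, hez, he, pe, -⟩ := make_involution hodd (K := Subgroup.centralizer {z}) (q := q) (π := pE)
    (by decide) hgz (fun i => congrArg (fun r : Fin 4 ↪ α => r i) hg)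
  rw [Subgroup.mem_centralizer_singleton_iff] at haz hez
  obtain ⟨b, hbdef⟩ : ∃ b, b = a * z := ⟨_, rfl⟩
  have hb : b * b = 1 := by
    rw [hbdef]; nth_rw 2 [haz]; rw [mul_assoc, ← mul_assoc z z, hz, one_mul, ha]
  have hab : a * b = b * a := by
    rw [hbdef, ← mul_assoc, ha, one_mul, mul_assoc, ← haz, ← mul_assoc, ha, one_mul]
  have habz : a * b = z := by rw [hbdef, ← mul_assoc, ha, one_mul]
  have pb : Pat b q pB := by
    have := pat_mul pa pz
    rwa [show (fun i => pA (pZ i)) = pB from by decide, ← hbdef] at this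
  obtain ⟨zf, hfdef⟩ : ∃ zf, zf = z * e := ⟨_, rfl⟩
  have hzf : zf * zf = 1 := by
    rw [hfdef]; nth_rw 2 [← hez]; rw [mul_assoc, ← mul_assoc e e, he, one_mul, hz]
  have pf : Pat zf q pF := by
    have := pat_mul pz pe
    rwa [show (fun i => pZ (pE i)) = pF from by decide, ← hfdef] at this
  have hze : z * e = e * z := hez.symm
  set f := (fixed (α := α) a).card with hf
  have hF2 : ∀ {u : G} {π : Fin 4 → Fin 4} {r : Fin 4 ↪ α}, u * u = 1 → u ≠ 1 → Pat u r π →
      π 2 = 2 → π 3 = 3 → (fixed (α := α) u).card = 2 + Fintype.card α % 2 := by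
    intro u π r hu hu1 hp h2 h3
    have hsub : ({r 2, r 3} : Finset α) ⊆ fixed u := by
      intro x hx
      simp only [Finset.mem_insert, Finset.mem_singleton] at hx
      rcases hx with rfl | rfl
      · rw [mem_fixed, hp 2, h2]
      · rw [mem_fixed, hp 3, h3]
    have h := Finset.card_le_card hsub
    rw [Finset.card_pair (r.injective.ne (by decide))] at h
    have := hle u hu hu1
    have := hpar u hu
    omega
  have hfa : f = 2 + Fintype.card α % 2 := hF2 ha (hne pa (by decide)) pa rfl rfl
  have pb' : Pat b (reorder q pE iE) pA := pat_reorder iE pb (by decide)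
  have hfb : (fixed (α := α) b).card = f := by
    rw [hfa]; exact hF2 hb (hne pb (by decide)) pb' rfl rfl
  have hM : ∀ u : G, (univ \ fixed (α := α) u).card = Fintype.card α - (fixed (α := α) u).card :=
    fun u => by rw [Finset.card_univ_sdiff]
  -- every double transposition is conjugate to `a`
  obtain ⟨xa, hxa⟩ : ∃ r : Fin 4 ↪ α, Pat a r pZ := by
    have h1 : 5 ≤ (univ \ fixed (α := α) a).card := by rw [hM]; omega
    obtain ⟨x, hx⟩ := Finset.card_pos.1 (by omega : 0 < (univ \ fixed (α := α) a).card)
    obtain ⟨y, hy, hyn⟩ := Finset.exists_mem_notMem_of_card_lt_card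
      (s := ({x, a • x} : Finset α)) (t := univ \ fixed a)
      (lt_of_le_of_lt Finset.card_le_two (by omega))
    simp only [Finset.mem_sdiff, Finset.mem_univ, true_and, mem_fixed] at hx hy
    simp only [Finset.mem_insert, Finset.mem_singleton, not_or] at hyn
    refine ⟨quad x (a • x) y (a • y) (quad_nodup_iff.2 ⟨Ne.symm hx, Ne.symm hyn.1, ?_, Ne.symm hyn.2, ?_,
      Ne.symm hy⟩), fun i => ?_⟩
    · intro h; exact hyn.2 (by rw [h, mul_self_smul ha])
    · exact fun h => hyn.1 ((smul_left_cancel_iff a).1 h.symm)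
    · fin_cases i
      · rfl
      · exact mul_self_smul ha x
      · rfl
      · exact mul_self_smul ha y
  have hZ : ∀ {u : G} {r : Fin 4 ↪ α}, u * u = 1 → Pat u r pZ → (fixed (α := α) u).card = f ∧
      Nat.card (Subgroup.centralizer {a}) =
        ((Fintype.card α - f) * (Fintype.card α - f - 2)) * Nat.card (St1 u r) := by
    intro u r hu hp
    obtain ⟨g, -, rfl⟩ := conj_of_pat h4 hodd ha hu hxa hp
    have hcard : (fixed (α := α) (g * a * g⁻¹)).card = f := card_fixed_conj g a
    refine ⟨hcard, ?_⟩
    rw [← card_centralizer_conj g a, card_centralizer_pattern h4 hodd hu hp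
      (univ.filter fun r' => Pat (g * a * g⁻¹) r' pZ) (fun r' => by simp),
      card_patZ hu _ (fun r' => by simp), hM, hcard]
  have hA : ∀ {u : G} {r : Fin 4 ↪ α}, u * u = 1 → Pat u r pA → (fixed (α := α) u).card = f →
      Nat.card (Subgroup.centralizer {u}) = ((Fintype.card α - f) * (f * f - f)) * Nat.card (St1 u r) := by
    intro u r hu hp hcard
    rw [card_centralizer_pattern h4 hodd hu hp (univ.filter fun r' => Pat u r' pA) (fun r' => by simp),
      card_patA hu _ (fun r' => by simp), hM, hcard]
  set A := Nat.card (St1 a q) with hAdef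
  set X := Nat.card (St1 z q) with hXdef
  have eA := hA ha pa rfl
  have eX := (hZ hz pz).2
  have hb' : Nat.card (Subgroup.centralizer {b}) = Nat.card (Subgroup.centralizer {a}) := by
    obtain ⟨g, -, hgab⟩ := conj_of_pat h4 hodd ha hb pa pb'
    rw [← hgab, card_centralizer_conj]
  have eB := hA hb pb' hfb
  rw [card_St1_reorder, hb', eA] at eB
  have iσ : Function.Injective (![0, 2, 1, 3] : Fin 4 → Fin 4) := by decide
  have iτ : Function.Injective (![0, 3, 1, 2] : Fin 4 → Fin 4) := by decide
  have eE := (hZ he (pat_reorder (π' := pZ) iσ pe (by decide))).2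
  rw [card_St1_reorder, eX] at eE
  have eF := (hZ hzf (pat_reorder (π' := pZ) iτ pf (by decide))).2
  rw [card_St1_reorder, eX] at eF
  have hpos1 : 0 < (Fintype.card α - f) * (f * f - f) := by
    refine Nat.mul_pos (by omega) ?_
    rcases Nat.mod_two_eq_zero_or_one (Fintype.card α) with h | h <;> rw [hfa, h] <;> norm_num
  have hpos2 : 0 < (Fintype.card α - f) * (Fintype.card α - f - 2) :=
    Nat.mul_pos (by omega) (by omega)
  have hBA := Nat.eq_of_mul_eq_mul_left hpos1 eB
  have hEX := Nat.eq_of_mul_eq_mul_left hpos2 eE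
  have hFX := Nat.eq_of_mul_eq_mul_left hpos2 eF
  have h1 : (f * f - f) * A = (Fintype.card α - f - 2) * X := by
    rw [eA, mul_assoc, mul_assoc] at eX
    exact Nat.eq_of_mul_eq_mul_left (by omega) eX
  -- the fixed points of the four-group
  have hfz : (fixed (α := α) z).card = f := (hZ hz pz).1
  set T : Finset α := fixed a \ {q 2, q 3} with hT
  have hqa : ({q 2, q 3} : Finset α) ⊆ fixed a := by
    intro x hx
    simp only [Finset.mem_insert, Finset.mem_singleton] at hx
    rcases hx with rfl | rfl
    · exact mem_fixed.2 (pa 2)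
    · exact mem_fixed.2 (pa 3)
  have hqb : ({q 0, q 1} : Finset α) ⊆ fixed b := by
    intro x hx
    simp only [Finset.mem_insert, Finset.mem_singleton] at hx
    rcases hx with rfl | rfl
    · exact mem_fixed.2 (pb 0)
    · exact mem_fixed.2 (pb 1)
  have hTc : T.card = f - 2 := by
    rw [hT, Finset.card_sdiff_of_subset hqa, Finset.card_pair (q.injective.ne (by decide))]
  have hTb : T ⊆ fixed b := by
    intro x hx
    have hx' := hx
    rw [hT, Finset.mem_sdiff, mem_fixed] at hx'
    have hbx : b • x ∈ T := by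
      rw [hT, Finset.mem_sdiff, mem_fixed]
      refine ⟨by rw [← mul_smul, hab, mul_smul, hx'.1], fun hc => hx'.2 ?_⟩
      simp only [Finset.mem_insert, Finset.mem_singleton] at hc ⊢
      rcases hc with hc | hc
      · exact Or.inr (by rw [← mul_self_smul hb x, hc]; exact pb 2)
      · exact Or.inl (by rw [← mul_self_smul hb x, hc]; exact pb 3)
    exact mem_fixed.2 (Finset.card_le_one.1 (by omega) _ hbx _ hx)
  have hTz : T ⊆ fixed z := fun x hx => by
    rw [mem_fixed, ← habz, mul_smul, mem_fixed.1 (hTb hx)]
    exact mem_fixed.1 (Finset.mem_sdiff.1 hx).1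
  have hdis : Disjoint ({q 0, q 1} : Finset α) (fixed a) := by
    rw [Finset.disjoint_left]
    intro x hx h
    simp only [Finset.mem_insert, Finset.mem_singleton] at hx
    rw [mem_fixed] at h
    rcases hx with rfl | rfl
    · exact absurd (q.injective ((pa 0).symm.trans h)) (by decide)
    · exact absurd (q.injective ((pa 1).symm.trans h)) (by decide)
  have hFb : fixed b = {q 0, q 1} ∪ T := by
    refine (Finset.eq_of_subset_of_card_le (Finset.union_subset hqb hTb) ?_).symm
    rw [Finset.card_union_of_disjoint (hdis.mono_right Finset.sdiff_subset),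
      Finset.card_pair (q.injective.ne (by decide)), hTc, hfb]
    omega
  have hab' : fixed a ∩ fixed b = T := by
    apply Finset.Subset.antisymm
    · intro x hx
      rw [Finset.mem_inter, hFb, Finset.mem_union] at hx
      exact hx.2.resolve_left fun h => Finset.disjoint_left.1 hdis h hx.1
    · exact Finset.subset_inter Finset.sdiff_subset hTb
  have hbmem : fixed b \ fixed a = ({q 0, q 1} : Finset α) := by
    ext x
    rw [Finset.mem_sdiff, hFb, Finset.mem_union]
    exact ⟨fun h => h.1.resolve_right fun hx => h.2 (Finset.mem_sdiff.1 hx).1,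
      fun h => ⟨Or.inl h, fun hx => Finset.disjoint_left.1 hdis h hx⟩⟩
  have hamem : fixed a \ fixed b = ({q 2, q 3} : Finset α) := by
    ext x
    rw [Finset.mem_sdiff]
    refine ⟨fun h => by_contra fun hx => h.2 (hTb (Finset.mem_sdiff.2 ⟨h.1, hx⟩)), fun h => ⟨hqa h, ?_⟩⟩
    intro hx
    have : x ∈ T := hab' ▸ Finset.mem_inter.2 ⟨hqa h, hx⟩
    exact (Finset.mem_sdiff.1 this).2 h
  set R : Finset α := univ \ (fixed a ∪ fixed b ∪ fixed z) with hR
  have hRmem : ∀ x, x ∈ R ↔ a • x ≠ x ∧ b • x ≠ x ∧ z • x ≠ x := fun x => by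
    simp [hR, mem_fixed, not_or]
  have hRc : R.card + f + 4 = Fintype.card α := by
    have hz1 : (fixed a ∪ fixed b) ∩ fixed z = T := by
      apply Finset.Subset.antisymm
      · intro x hx
        rw [Finset.mem_inter, Finset.mem_union, mem_fixed, mem_fixed, mem_fixed] at hx
        rw [← hab', Finset.mem_inter, mem_fixed, mem_fixed]
        rcases hx.1 with h | h
        · exact ⟨h, by rw [hbdef, mul_smul, hx.2, h]⟩
        · refine ⟨?_, h⟩
          rw [hbdef, mul_smul, hx.2] at h
          exact h
      · exact fun x hx => Finset.mem_inter.2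
          ⟨Finset.mem_union_left _ (Finset.mem_sdiff.1 hx).1, hTz hx⟩
    have e1 := Finset.card_union_add_card_inter (fixed (α := α) a) (fixed b)
    have e2 := Finset.card_union_add_card_inter (fixed (α := α) a ∪ fixed b) (fixed z)
    have e3 := Finset.card_le_univ (fixed (α := α) a ∪ fixed b ∪ fixed z)
    rw [hab'] at e1
    rw [hz1] at e2
    rw [hR, Finset.card_univ_sdiff]
    omega
  set W := Nat.card (St2 a b q) with hWdef
  have hC1 : Nat.card ↥(Subgroup.centralizer {a} ⊓ Subgroup.centralizer {b}) = 4 * W := by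
    rw [card_centralizer_pair h4 hodd ha hb hab pa pb
      (univ.filter fun r => Pat a r pA ∧ Pat b r pB) (fun r => by simp)]
    congr 1
    refine Eq.trans ?_ (show ((fixed b \ fixed a) ×ˢ (fixed (α := α) a \ fixed b)).card = 4 from by
      rw [Finset.card_product, hbmem, hamem, Finset.card_pair (q.injective.ne (by decide)),
        Finset.card_pair (q.injective.ne (by decide))])
    symm
    refine Finset.card_bij (fun t ht => quad t.1 (a • t.1) t.2 (b • t.2) ?_) (fun t ht => ?_)
      (fun t _ t' _ h => ?_) (fun r hr => ?_)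
    · simp only [Finset.mem_product, Finset.mem_sdiff, mem_fixed] at ht
      obtain ⟨⟨hbx, hax⟩, hay, hby⟩ := ht
      refine quad_nodup_iff.2 ⟨Ne.symm hax, fun h => hax (h ▸ hay), ?_, ?_, ?_, Ne.symm hby⟩
      · intro h; exact hax (by rw [h, ← mul_smul, hab, mul_smul, hay])
      · intro h; apply hax; rw [← h, mul_self_smul ha] at hay; exact hay.symm
      · intro h
        apply hax
        have e := congrArg (fun w => b • w) h
        simp only [mul_self_smul hb] at e
        rw [← mul_smul, ← hab, mul_smul, hbx] at e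
        rw [← e, mul_self_smul ha] at hay
        exact hay.symm
    · simp only [Finset.mem_product, Finset.mem_sdiff, mem_fixed] at ht
      obtain ⟨⟨hbx, hax⟩, hay, hby⟩ := ht
      rw [Finset.mem_filter]
      refine ⟨Finset.mem_univ _, fun i => ?_, fun i => ?_⟩
      · fin_cases i
        · rfl
        · exact mul_self_smul ha t.1
        · exact hay
        · show a • b • t.2 = b • t.2
          rw [← mul_smul, hab, mul_smul, hay]
      · fin_cases i
        · exact hbx
        · show b • a • t.1 = a • t.1
          rw [← mul_smul, ← hab, mul_smul, hbx]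
        · rfl
        · exact mul_self_smul hb t.2
    · exact Prod.ext (congrArg (fun r : Fin 4 ↪ α => r 0) h) (congrArg (fun r : Fin 4 ↪ α => r 2) h)
    · simp only [Finset.mem_filter, Finset.mem_univ, true_and] at hr
      obtain ⟨h1, h2⟩ := hr
      have a0 : a • r 0 = r 1 := h1 0
      have b0 : b • r 0 = r 0 := h2 0
      have a2 : a • r 2 = r 2 := h1 2
      have b2 : b • r 2 = r 3 := h2 2
      refine ⟨(r 0, r 2), ?_, ?_⟩
      · simp only [Finset.mem_product, Finset.mem_sdiff, mem_fixed]
        exact ⟨⟨b0, by rw [a0]; exact r.injective.ne (by decide)⟩, a2,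
          by rw [b2]; exact r.injective.ne (by decide)⟩
      · refine Function.Embedding.ext fun i => ?_
        fin_cases i
        · rfl
        · exact a0
        · rfl
        · exact b2
  obtain ⟨x, hx⟩ := Finset.card_pos.1 (show 0 < R.card by omega)
  have hregnd : ∀ x ∈ R, [x, a • x, b • x, z • x].Nodup := by
    intro x hx
    rw [hRmem] at hx
    obtain ⟨hax, hbx, hzx⟩ := hx
    refine quad_nodup_iff.2 ⟨Ne.symm hax, Ne.symm hbx, Ne.symm hzx, ?_, ?_, ?_⟩
    · intro h
      apply hzx
      rw [← habz, mul_smul, ← h, mul_self_smul ha]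
    · intro h
      apply hbx
      rw [← habz, mul_smul] at h
      exact ((smul_left_cancel_iff a).1 h).symm
    · intro h
      apply hax
      rw [← habz, hab, mul_smul] at h
      exact ((smul_left_cancel_iff b).1 h).symm
  set qx := quad x (a • x) (b • x) (z • x) (hregnd x hx) with hqx
  have hpx : ∀ (y : α) (h : [y, a • y, b • y, z • y].Nodup),
      Pat a (quad y (a • y) (b • y) (z • y) h) pZ ∧ Pat b (quad y (a • y) (b • y) (z • y) h) pE := by
    intro y h
    constructor <;> intro i <;> fin_cases i
    · rfl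
    · exact mul_self_smul ha y
    · show a • b • y = z • y
      rw [← mul_smul, habz]
    · show a • z • y = b • y
      rw [← mul_smul, ← hbdef]
    · rfl
    · show b • a • y = z • y
      rw [← mul_smul, ← hab, habz]
    · exact mul_self_smul hb y
    · show b • z • y = a • y
      rw [← habz, hab, mul_smul, mul_self_smul hb]
  have hC2 : Nat.card ↥(Subgroup.centralizer {a} ⊓ Subgroup.centralizer {b}) =
      R.card * Nat.card (St2 a b qx) := by
    rw [card_centralizer_pair h4 hodd ha hb hab (hpx x (hregnd x hx)).1 (hpx x (hregnd x hx)).2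
      (univ.filter fun r => Pat a r pZ ∧ Pat b r pE) (fun r => by simp)]
    congr 1
    symm
    refine Finset.card_bij (fun y hy => quad y (a • y) (b • y) (z • y) (hregnd y hy)) (fun y hy => ?_)
      (fun y _ y' _ h => congrArg (fun r : Fin 4 ↪ α => r 0) h) (fun r hr => ?_)
    · rw [Finset.mem_filter]
      exact ⟨Finset.mem_univ _, hpx y _⟩
    · simp only [Finset.mem_filter, Finset.mem_univ, true_and] at hr
      obtain ⟨h1, h2⟩ := hr
      have a0 : a • r 0 = r 1 := h1 0
      have b0 : b • r 0 = r 2 := h2 0
      have z0 : z • r 0 = r 3 := by rw [← habz, mul_smul, b0]; exact h1 2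
      refine ⟨r 0, (hRmem _).2 ⟨?_, ?_, ?_⟩, ?_⟩
      · rw [a0]; exact r.injective.ne (by decide)
      · rw [b0]; exact r.injective.ne (by decide)
      · rw [z0]; exact r.injective.ne (by decide)
      · refine Function.Embedding.ext fun i => ?_
        fin_cases i
        · rfl
        · exact a0
        · exact b0
        · exact z0
  set W' := Nat.card (St2 z e q) with hW'def
  have hWx : Nat.card (St2 a b qx) = W' := by
    obtain ⟨g, hgq, hga, hgb⟩ := conj_of_pat_two h4 hodd ha hb hz he hab hze (hpx x (hregnd x hx)).1 pz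
      (hpx x (hregnd x hx)).2 pe
    have := card_St2_conj g a b qx
    rw [hga, hgb] at this
    rw [hgq] at this
    exact this.symm
  have h2 : 4 * W = R.card * W' := by rw [← hC1, hC2, hWx]
  -- Brauer and Wielandt, twice
  have bw1 := OddAct.card_mul_card_centralizer_sq (stabilizer G q) (hodd q) ha hb hab habz
    (conj_mem_stab ha pa) (conj_mem_stab hb pb)
  have bw2 := OddAct.card_mul_card_centralizer_sq (stabilizer G q) (hodd q) hz he hze hfdef.symm
    (conj_mem_stab hz pz) (conj_mem_stab he pe)
  change Nat.card (stabilizer G q) * W ^ 2 = A * Nat.card (St1 b q) * X at bw1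
  change Nat.card (stabilizer G q) * W' ^ 2 = X * Nat.card (St1 e q) * Nat.card (St1 zf q) at bw2
  rw [← hBA] at bw1
  rw [← hEX, ← hFX] at bw2
  have hXpos : 0 < X :=
    @Nat.card_pos _ ⟨⟨1, Subgroup.one_mem _, by simp⟩⟩ inferInstance
  have hW'pos : 0 < W' :=
    @Nat.card_pos _ ⟨⟨1, Subgroup.one_mem _, by simp, by simp⟩⟩ inferInstance
  have h3 : W * X = W' * A := by
    apply Nat.pow_left_injective (n := 2) (by norm_num)
    show (W * X) ^ 2 = (W' * A) ^ 2
    apply Nat.eq_of_mul_eq_mul_left (Nat.card_pos (α := stabilizer G q))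
    calc Nat.card (stabilizer G q) * (W * X) ^ 2 = (Nat.card (stabilizer G q) * W ^ 2) * X ^ 2 := by ring
      _ = (Nat.card (stabilizer G q) * W' ^ 2) * A ^ 2 := by rw [bw1, bw2]; ring
      _ = Nat.card (stabilizer G q) * (W' * A) ^ 2 := by ring
  have h4' : R.card * X = 4 * A := by
    apply Nat.eq_of_mul_eq_mul_left hW'pos
    calc W' * (R.card * X) = (R.card * W') * X := by ring
      _ = 4 * (W * X) := by rw [← h2]; ring
      _ = W' * (4 * A) := by rw [h3]; ring
  have h5 : (f * f - f) * R.card = 4 * (Fintype.card α - f - 2) := by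
    apply Nat.eq_of_mul_eq_mul_right hXpos
    rw [mul_assoc, h4', mul_left_comm, h1, mul_assoc]
  have hn11 : Fintype.card α = 11 := by
    rcases Nat.mod_two_eq_zero_or_one (Fintype.card α) with h | h
    · have hf2 : f = 2 := by omega
      rw [hf2] at h5 hRc
      norm_num at h5
      omega
    · have hf2 : f = 3 := by omega
      rw [hf2] at h5 hRc
      norm_num at h5
      omega
  refine ⟨hn11, X, ?_⟩
  have hf3 : f = 3 := by omega
  have hR4 : R.card = 4 := by omega
  have hW1 : W = 1 := by
    rw [hWdef]
    refine Nat.card_eq_one_iff_unique.2 ⟨⟨fun w w' => ?_⟩, ⟨⟨1, Subgroup.one_mem _, by simp, by simp⟩⟩⟩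
    suffices hone : ∀ w : St2 a b q, (w : G) = 1 from Subtype.ext ((hone w).trans (hone w').symm)
    rintro ⟨w, hw, hwa, hwb⟩
    show w = 1
    have hq := mem_stab.1 hw
    have hwz : z * w = w * z := by
      rw [← habz, mul_assoc, hwb, ← mul_assoc, hwa, mul_assoc]
    have hpres : ∀ u : G, u * w = w * u → ∀ y, w • y ∈ fixed (α := α) u ↔ y ∈ fixed (α := α) u := by
      intro u huw y
      rw [mem_fixed, mem_fixed, ← mul_smul, huw, mul_smul, smul_left_cancel_iff]
    have hfixT : ∀ y ∈ T, w • y = y := by
      intro y hy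
      have hy' := Finset.mem_sdiff.1 hy
      refine Finset.card_le_one.1 (show T.card ≤ 1 by omega) _ (Finset.mem_sdiff.2 ⟨(hpres a hwa y).2 hy'.1, ?_⟩) _ hy
      intro hc
      apply hy'.2
      simp only [Finset.mem_insert, Finset.mem_singleton] at hc ⊢
      rcases hc with hc | hc
      · exact Or.inl ((smul_left_cancel_iff w).1 (hc.trans (hq 2).symm))
      · exact Or.inr ((smul_left_cancel_iff w).1 (hc.trans (hq 3).symm))
    refine eq_of_smul_eq_smul (α := α) fun y => ?_
    rw [one_smul]
    by_cases hya : y ∈ fixed (α := α) a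
    · by_cases hy2 : y ∈ ({q 2, q 3} : Finset α)
      · simp only [Finset.mem_insert, Finset.mem_singleton] at hy2
        rcases hy2 with rfl | rfl <;> exact hq _
      · exact hfixT y (Finset.mem_sdiff.2 ⟨hya, hy2⟩)
    by_cases hyb : y ∈ fixed (α := α) b
    · rw [hFb, Finset.mem_union] at hyb
      rcases hyb with hyb | hyb
      · simp only [Finset.mem_insert, Finset.mem_singleton] at hyb
        rcases hyb with rfl | rfl <;> exact hq _
      · exact hfixT y hyb
    apply smul_eq_self_of_odd hodd hw
    by_cases hyz : y ∈ fixed (α := α) z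
    · have hyT : y ∈ fixed (α := α) z \ T :=
        Finset.mem_sdiff.2 ⟨hyz, fun h => hya (Finset.mem_sdiff.1 h).1⟩
      have hstep : ∀ v ∈ fixed (α := α) z \ T, w • v ∈ fixed (α := α) z \ T := by
        intro v hv
        rw [Finset.mem_sdiff] at hv ⊢
        refine ⟨(hpres z hwz v).2 hv.1, fun h => hv.2 ?_⟩
        rwa [← (smul_left_cancel_iff w).1 (hfixT _ h)]
      have hc : (fixed (α := α) z \ T).card = 2 := by
        rw [Finset.card_sdiff_of_subset hTz, hfz, hTc, hf3]
      obtain ⟨u, v, -, huv⟩ := Finset.card_eq_two.1 hc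
      have m1 := hstep y hyT
      have m2 := hstep _ m1
      rw [huv] at m1 m2 hyT
      simp only [Finset.mem_insert, Finset.mem_singleton] at m1 m2 hyT
      by_cases heq : w • y = y
      · rw [heq, heq]
      · have : w • w • y ≠ w • y := fun h => heq ((smul_left_cancel_iff w).1 h)
        rcases hyT with h | h <;> rcases m1 with h' | h' <;> rcases m2 with h'' | h'' <;>
          first
            | exact h''.trans h.symm
            | exact absurd (h'.trans h.symm) heq
            | exact absurd (h''.trans h'.symm) this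
    · have hyR : y ∈ R := (hRmem y).2 ⟨fun h => hya (mem_fixed.2 h), fun h => hyb (mem_fixed.2 h),
        fun h => hyz (mem_fixed.2 h)⟩
      have hRset : R = {y, a • y, b • y, z • y} := by
        symm
        apply Finset.eq_of_subset_of_card_le
        · have hin : ∀ u : G, u * a = a * u → u * b = b * u → u * z = z * u → u • y ∈ R := by
            intro u hua hub huz
            rw [hRmem] at hyR ⊢
            exact ⟨fun h => hyR.1 ((smul_left_cancel_iff u).1 (by rw [← mul_smul, hua, mul_smul, h])),
              fun h => hyR.2.1 ((smul_left_cancel_iff u).1 (by rw [← mul_smul, hub, mul_smul, h])),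
              fun h => hyR.2.2 ((smul_left_cancel_iff u).1 (by rw [← mul_smul, huz, mul_smul, h]))⟩
          have hbz : b * z = z * b := by rw [← habz, ← mul_assoc, ← hab]
          intro v hv
          simp only [Finset.mem_insert, Finset.mem_singleton] at hv
          rcases hv with rfl | rfl | rfl | rfl
          · exact hyR
          · exact hin a rfl hab haz
          · exact hin b hab.symm rfl hbz
          · exact hin z haz.symm hbz.symm rfl
        · have hnd := hregnd y hyR
          have hc := List.toFinset_card_of_nodup hnd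
          simp only [List.toFinset_cons, List.toFinset_nil, List.length_cons, List.length_nil] at hc
          simp only [hR4]
          exact le_of_eq (by simpa using hc.symm)
      have hwy : w • y ∈ R := by
        rw [hRmem]
        exact ⟨fun h => hya ((hpres a hwa y).1 (mem_fixed.2 h)),
          fun h => hyb ((hpres b hwb y).1 (mem_fixed.2 h)), fun h => hyz ((hpres z hwz y).1 (mem_fixed.2 h))⟩
      rw [hRset] at hwy
      simp only [Finset.mem_insert, Finset.mem_singleton] at hwy
      have hcomm : ∀ u : G, u * u = 1 → u * w = w * u → w • y = u • y → w • w • y = y := by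
        intro u hu huw h
        rw [h, ← mul_smul, ← huw, mul_smul, h, mul_self_smul hu]
      rcases hwy with h | h | h | h
      · rw [h, h]
      · exact hcomm a ha hwa h
      · exact hcomm b hb hwb h
      · exact hcomm z hz hwz h
  have hW'1 : W' = 1 := by rw [hW1, hR4] at h2; omega
  rw [hW'1, one_pow, mul_one] at bw2
  rw [bw2]; ring

end Cfsg.Agent.FGS3.FourOdd
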