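import Cfsg.Agent.FGS2.FrobSolutions
import Cfsg.Agent.FGS3.ClassSize

/-!
# Frobenius: the number of solutions of `x ^ n ∈ C`
-/

set_option autoImplicit false
set_option linter.style.haveILetI false

namespace Cfsg.Agent.FGS3.FrobeniusPowers

universe v

variable {G : Type v} [Group G] [Finite G]

/-- Solutions of `x ^ n = c`. -/
noncomputable def num (n : ℕ) (c : G) : ℕ := Nat.card {x : G // x ^ n = c}

theorem gcd_dvd_num_one (n : ℕ) : n.gcd (Nat.card G) ∣ num n (1 : G) := by
  have h := Cfsg.Agent.FGS2.frobenius_solutions (Nat.card G) (G := G) rfl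
    (n.gcd (Nat.card G)) (Nat.gcd_dvd_right _ _)
  refine h.trans (dvd_of_eq (Nat.card_congr (Equiv.subtypeEquivRight fun x => ?_)))
  rw [pow_gcd_eq_one]
  exact ⟨fun h => h.1, fun h => ⟨h, pow_card_eq_one'⟩⟩

/-- Central right hand side, prime power exponent. -/
theorem gcd_dvd_num_central {p a : ℕ} [hp : Fact p.Prime] {c : G} (hc : ∀ g : G, Commute c g) :
    (p ^ a).gcd (Nat.card G) ∣ num (p ^ a) c := by
  classical
  by_cases hd : p ∣ orderOf c
  · refine Dvd.dvd.trans (Nat.gcd_dvd_left _ _) ?_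
    haveI := Fintype.ofFinite {x : G // x ^ p ^ a = c}
    have e := Equiv.sigmaFiberEquiv (fun x : {x : G // x ^ p ^ a = c} => Subgroup.zpowers (x : G))
    haveI : Fintype (Subgroup G) := Fintype.ofFinite _
    rw [num, ← Nat.card_congr e, Nat.card_sigma]
    refine Finset.dvd_sum fun C _ => ?_
    rcases isEmpty_or_nonempty {x : {x : G // x ^ p ^ a = c} // Subgroup.zpowers (x : G) = C} with h | h
    · rw [Nat.card_of_isEmpty]; exact dvd_zero _
    obtain ⟨⟨⟨x, hx⟩, rfl⟩⟩ := h
    set o := orderOf c with ho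
    have hxo : orderOf x = p ^ a * o := by
      rw [ho, ← hx]
      rcases Nat.eq_zero_or_pos a with rfl | ha
      · simp
      rw [orderOf_pow]
      have hdx : p ^ a ∣ orderOf x := by
        by_contra hcon
        obtain ⟨e, r, hr, her⟩ := Nat.exists_eq_pow_mul_and_not_dvd (orderOf_pos x).ne' p hp.out.ne_one
        have hea : e ≤ a := by
          by_contra hh
          exact hcon (her ▸ (pow_dvd_pow p (by omega)).mul_right r)
        apply hr
        have h1 : orderOf (x ^ p ^ a) ∣ r := by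
          refine orderOf_dvd_of_pow_eq_one ?_
          rw [← pow_mul, ← orderOf_dvd_iff_pow_eq_one, her]
          exact mul_dvd_mul_right (pow_dvd_pow p hea) r
        rw [hx] at h1
        exact hd.trans h1
      rw [Nat.gcd_eq_right hdx, Nat.mul_div_cancel' hdx]
    -- the generators of the same cyclic group with the same power
    let f : Fin (p ^ a) → {y : {y : G // y ^ p ^ a = c} //
        Subgroup.zpowers (y : G) = Subgroup.zpowers x} := fun i =>
      ⟨⟨x ^ (1 + o * (i : ℕ)), by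
        rw [← pow_mul, Nat.add_mul, pow_add, one_mul, hx, mul_comm o, mul_assoc, mul_comm (i : ℕ),
          show o * p ^ a = orderOf x by rw [hxo, mul_comm], pow_mul, pow_orderOf_eq_one, one_pow,
          mul_one]⟩, by
        refine le_antisymm (Subgroup.zpowers_le.2 (Subgroup.pow_mem _ (Subgroup.mem_zpowers x) _)) ?_
        have hcop : (1 + o * (i : ℕ)).Coprime (orderOf x) := by
          rw [hxo]
          obtain ⟨o', ho'⟩ := hd
          refine Nat.Coprime.mul_right ?_ (Nat.coprime_add_mul_left_left 1 o i |>.2 (Nat.coprime_one_left o))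
          refine Nat.Coprime.pow_right a ?_
          rw [ho', mul_assoc]
          exact (Nat.coprime_add_mul_left_left 1 p _).2 (Nat.coprime_one_left p)
        refine Subgroup.zpowers_le.2 ?_
        obtain ⟨m, hm⟩ := exists_pow_eq_self_of_coprime hcop
        have h5 : (x ^ (1 + o * (i : ℕ))) ^ m ∈ Subgroup.zpowers (x ^ (1 + o * (i : ℕ))) :=
          Subgroup.pow_mem _ (Subgroup.mem_zpowers _) _
        rw [hm] at h5
        exact h5⟩
    rw [← Nat.card_eq_of_bijective f ⟨?_, ?_⟩, Nat.card_fin]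
    · intro i j hij
      have h1 : x ^ (1 + o * (i : ℕ)) = x ^ (1 + o * (j : ℕ)) :=
        congrArg (fun y => (y.1 : G)) hij
      rw [pow_eq_pow_iff_modEq, hxo, mul_comm (p ^ a)] at h1
      have h2 : (i : ℕ) ≡ j [MOD p ^ a] :=
        (Nat.ModEq.add_left_cancel' 1 h1).mul_left_cancel' (orderOf_pos c).ne'
      exact Fin.ext (h2.eq_of_lt_of_lt i.2 j.2)
    · rintro ⟨⟨y, hy⟩, hyz⟩
      obtain ⟨k, rfl⟩ : ∃ k : ℕ, x ^ k = y :=
        mem_powers_iff_mem_zpowers.2 (hyz ▸ Subgroup.mem_zpowers y)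
      have h1 : k ≡ 1 [MOD o] := by
        rw [← pow_mul, mul_comm, pow_mul, hx] at hy
        exact pow_eq_pow_iff_modEq.1 (hy.trans (pow_one c).symm)
      obtain ⟨j, hj⟩ : ∃ j : ℕ, k ≡ 1 + o * j [MOD p ^ a * o] := by
        by_cases hk : k = 0
        · -- then o = 1, impossible
          subst hk
          have := (Nat.modEq_iff_dvd' (Nat.zero_le 1)).1 h1
          have ho1 : o = 1 := Nat.dvd_one.1 this
          rw [ho1] at hd
          exact absurd (Nat.dvd_one.1 hd) hp.out.ne_one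
        · obtain ⟨j, hj⟩ := (Nat.modEq_iff_dvd' (Nat.one_le_iff_ne_zero.2 hk)).1 h1.symm
          exact ⟨j, by rw [← hj, Nat.add_sub_cancel' (Nat.one_le_iff_ne_zero.2 hk)]⟩
      refine ⟨⟨j % p ^ a, Nat.mod_lt _ (pow_pos hp.out.pos a)⟩, ?_⟩
      apply Subtype.ext; apply Subtype.ext
      show x ^ (1 + o * (j % p ^ a)) = x ^ k
      rw [pow_eq_pow_iff_modEq, hxo]
      refine (Nat.ModEq.add_left 1 ?_).trans hj.symm
      rw [mul_comm (p ^ a)]
      exact (Nat.mod_modEq j (p ^ a)).mul_left' o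
  · have hcop : (p ^ a).Coprime (orderOf c) :=
      ((Nat.Prime.coprime_iff_not_dvd hp.out).2 hd).pow_left a
    obtain ⟨m, hm⟩ := exists_pow_eq_self_of_coprime hcop
    refine (gcd_dvd_num_one (G := G) (p ^ a)).trans (dvd_of_eq ?_)
    refine Nat.card_congr ((Equiv.mulLeft (c ^ m)).subtypeEquiv fun x => ?_)
    show x ^ p ^ a = 1 ↔ (c ^ m * x) ^ p ^ a = c
    rw [((hc x).pow_left m).mul_pow, ← pow_mul c, mul_comm, pow_mul, hm]
    constructor
    · intro h; rw [h, mul_one]
    · intro h; exact mul_eq_left.1 h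

/-- The prime power exponent, summed over a conjugation invariant set of right hand sides. -/
theorem gcd_dvd_num_set {p a : ℕ} [hp : Fact p.Prime] (S : G → Prop)
    (hS : ∀ g y, S y → S (g * y * g⁻¹)) :
    (p ^ a).gcd (Nat.card G) ∣ Nat.card {x : G // S (x ^ p ^ a)} := by
  classical
  haveI := Fintype.ofFinite G
  haveI : Fintype (ConjClasses G) := Fintype.ofFinite _
  let f : {x : G // S (x ^ p ^ a)} → ConjClasses G := fun x => ConjClasses.mk ((x : G) ^ p ^ a)
  rw [← Nat.card_congr (Equiv.sigmaFiberEquiv f), Nat.card_sigma]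
  refine Finset.dvd_sum fun K _ => ?_
  obtain ⟨y, rfl⟩ := ConjClasses.exists_rep K
  by_cases hy : S y
  swap
  · haveI : IsEmpty {x : {x : G // S (x ^ p ^ a)} // f x = ConjClasses.mk y} := by
      refine ⟨fun ⟨⟨x, hx⟩, hxy⟩ => hy ?_⟩
      obtain ⟨g, hg⟩ := isConj_iff.1 (ConjClasses.mk_eq_mk_iff_isConj.1 hxy)
      rw [← hg]; exact hS g _ hx
    rw [Nat.card_of_isEmpty (α := {x : {x : G // S (x ^ p ^ a)} // f x = ConjClasses.mk y})]
    exact dvd_zero _
  set H := Subgroup.centralizer ({y} : Set G) with hH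
  have hyH : y ∈ H := Subgroup.mem_centralizer_singleton_iff.2 rfl
  have hmemx : ∀ x : G, x ^ p ^ a = y → x ∈ H := fun x hx => by
    refine Subgroup.mem_centralizer_singleton_iff.2 ?_
    rw [← hx]
    exact ((Commute.refl x).pow_right _).eq
  have hnum : num (p ^ a) y = num (p ^ a) (⟨y, hyH⟩ : H) :=
    Nat.card_congr
      { toFun := fun x => ⟨⟨x.1, hmemx _ x.2⟩, Subtype.ext (by rw [Subgroup.coe_pow]; exact x.2)⟩
        invFun := fun x => ⟨x.1.1, by rw [← Subgroup.coe_pow, x.2]⟩
        left_inv := fun x => rfl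
        right_inv := fun x => rfl }
  have hd := gcd_dvd_num_central (p := p) (a := a) (c := (⟨y, hyH⟩ : H))
    (fun g => Subtype.ext (Subgroup.mem_centralizer_singleton_iff.1 g.2).symm)
  rw [← hnum] at hd
  have hfib : Nat.card {x : {x : G // S (x ^ p ^ a)} // f x = ConjClasses.mk y} =
      H.index * num (p ^ a) y := by
    rw [index_centralizer_eq_card_isConj]
    have hconj : ∀ y' : {y' : G // IsConj y y'}, num (p ^ a) (y' : G) = num (p ^ a) y := by
      rintro ⟨y', hy'⟩
      obtain ⟨g, rfl⟩ := isConj_iff.1 hy'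
      refine (Nat.card_congr ((MulAut.conj g).toEquiv.subtypeEquiv fun x => ?_)).symm
      show x ^ p ^ a = y ↔ (MulAut.conj g x) ^ p ^ a = g * y * g⁻¹
      rw [← map_pow, ← MulAut.conj_apply, EquivLike.apply_eq_iff_eq]
    let e : {x : {x : G // S (x ^ p ^ a)} // f x = ConjClasses.mk y} ≃
        Σ y' : {y' : G // IsConj y y'}, {x : G // x ^ p ^ a = (y' : G)} :=
      { toFun := fun x => ⟨⟨x.1.1 ^ p ^ a, (ConjClasses.mk_eq_mk_iff_isConj.1 x.2).symm⟩, ⟨x.1.1, rfl⟩⟩
        invFun := fun z => ⟨⟨z.2.1, by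
            obtain ⟨g, hg⟩ := isConj_iff.1 z.1.2
            rw [z.2.2, ← hg]; exact hS g y hy⟩, by
          show ConjClasses.mk (z.2.1 ^ p ^ a) = ConjClasses.mk y
          rw [z.2.2, ConjClasses.mk_eq_mk_iff_isConj]; exact z.1.2.symm⟩
        left_inv := fun x => rfl
        right_inv := fun z => by
          obtain ⟨⟨y', hy'⟩, x, hx⟩ := z
          dsimp only at hx
          subst hx
          rfl }
    haveI := Fintype.ofFinite {y' : G // IsConj y y'}
    rw [Nat.card_congr e, Nat.card_sigma]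
    show ∑ y' : {y' : G // IsConj y y'}, num (p ^ a) (y' : G) = _
    rw [Finset.sum_congr rfl (g := fun _ => num (p ^ a) y) fun y' _ => hconj y',
      Finset.sum_const, Finset.card_univ, smul_eq_mul, Nat.card_eq_fintype_card (α := {y' : G // IsConj y y'})]
  rw [hfib]
  refine dvd_trans ?_ (mul_dvd_mul_left _ hd)
  rw [← Nat.gcd_mul_left, H.index_mul_card]
  exact Nat.dvd_gcd ((Nat.gcd_dvd_left _ _).trans (dvd_mul_left _ _)) (Nat.gcd_dvd_right _ _)

/-- Central right hand side, any exponent. -/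
theorem gcd_dvd_num {n : ℕ} {c : G} (hc : ∀ g : G, Commute c g) :
    n.gcd (Nat.card G) ∣ num n c := by
  rcases Nat.eq_zero_or_pos (num n c) with h0 | h0
  · rw [h0]; exact dvd_zero _
  rw [← Nat.factorization_le_iff_dvd (Nat.gcd_pos_of_pos_right _ Nat.card_pos).ne' h0.ne']
  intro p
  by_cases hp : p.Prime
  swap
  · simp [Nat.factorization_eq_zero_of_not_prime _ hp]
  rw [← hp.pow_dvd_iff_le_factorization h0.ne']
  set d := (n.gcd (Nat.card G)).factorization p
  haveI := Fact.mk hp
  obtain ⟨k, hk⟩ : p ^ d ∣ n := (Nat.ordProj_dvd _ p).trans (Nat.gcd_dvd_left _ _)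
  have h := gcd_dvd_num_set (G := G) (p := p) (a := d) (fun y => y ^ k = c) fun g y hy => by
    rw [conj_pow, hy, ← (hc g).eq, mul_inv_cancel_right]
  rw [Nat.gcd_eq_left ((Nat.ordProj_dvd _ p).trans (Nat.gcd_dvd_right _ _))] at h
  refine h.trans (dvd_of_eq (Nat.card_congr (Equiv.subtypeEquivRight fun x => ?_)))
  rw [hk, pow_mul]

/-- **Frobenius.** -/
theorem gcd_card_class_mul_dvd (c : G) (n : ℕ) :
    Nat.gcd (Nat.card {y : G // IsConj c y} * n) (Nat.card G) ∣
      Nat.card {x : G // IsConj c (x ^ n)} := by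
  classical
  set H := Subgroup.centralizer ({c} : Set G)
  have hcH : c ∈ H := Subgroup.mem_centralizer_singleton_iff.2 rfl
  have hd := gcd_dvd_num (n := n) (c := (⟨c, hcH⟩ : H))
    (fun g => Subtype.ext (Subgroup.mem_centralizer_singleton_iff.1 g.2).symm)
  have hnum : num n c = num n (⟨c, hcH⟩ : H) := by
    refine Nat.card_congr
      { toFun := fun x => ⟨⟨x.1, ?_⟩, Subtype.ext (by rw [Subgroup.coe_pow]; exact x.2)⟩
        invFun := fun x => ⟨x.1.1, by rw [← Subgroup.coe_pow, x.2]⟩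
        left_inv := fun x => rfl
        right_inv := fun x => rfl }
    refine Subgroup.mem_centralizer_singleton_iff.2 ?_
    have h := ((Commute.refl x.1).pow_right n).eq
    rwa [x.2] at h
  have hconj : ∀ y : {y : G // IsConj c y}, num n (y : G) = num n c := by
    rintro ⟨y', hy'⟩
    obtain ⟨g, rfl⟩ := isConj_iff.1 hy'
    refine (Nat.card_congr ((MulAut.conj g).toEquiv.subtypeEquiv fun x => ?_)).symm
    show x ^ n = c ↔ (MulAut.conj g x) ^ n = g * c * g⁻¹
    rw [← map_pow, ← MulAut.conj_apply, EquivLike.apply_eq_iff_eq]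
  let e : {x : G // IsConj c (x ^ n)} ≃ Σ y : {y : G // IsConj c y}, {x : G // x ^ n = (y : G)} :=
    { toFun := fun x => ⟨⟨x.1 ^ n, x.2⟩, ⟨x.1, rfl⟩⟩
      invFun := fun z => ⟨z.2.1, by rw [z.2.2]; exact z.1.2⟩
      left_inv := fun x => rfl
      right_inv := fun z => by
        obtain ⟨⟨y', hy'⟩, x, hx⟩ := z
        dsimp only at hx
        subst hx
        rfl }
  haveI := Fintype.ofFinite {y : G // IsConj c y}
  rw [Nat.card_congr e, Nat.card_sigma]
  show _ ∣ ∑ y : {y : G // IsConj c y}, num n (y : G)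
  rw [Finset.sum_congr rfl (g := fun _ => num n c) fun y _ => hconj y,
    Finset.sum_const, Finset.card_univ, smul_eq_mul, ← Nat.card_eq_fintype_card,
    ← card_isConj_mul_card_centralizer c, Nat.gcd_mul_left, hnum]
  exact mul_dvd_mul_left _ hd

end Cfsg.Agent.FGS3.FrobeniusPowers
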