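import Mathlib

/-!
# Gaschütz's splitting theorem
-/

set_option autoImplicit false
set_option linter.style.haveILetI false

namespace Cfsg.Agent.FGS3.GaschutzSplit

variable {G : Type*} [Group G] (A : Subgroup G) [A.Normal]

/-- A section of the quotient map. -/
def IsSec (s : G ⧸ A → G) : Prop := ∀ x, (s x : G ⧸ A) = x

variable {A} {s t : G ⧸ A → G}

/-- The factor set of a section. -/
def fs (hs : IsSec A s) (x y : G ⧸ A) : A :=
  ⟨s x * s y * (s (x * y))⁻¹, by
    rw [← QuotientGroup.eq_one_iff, QuotientGroup.mk_mul, QuotientGroup.mk_mul,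
      QuotientGroup.mk_inv, hs, hs, hs, mul_inv_cancel]⟩

/-- Conjugation by the chosen representative. -/
def act (s : G ⧸ A → G) (x : G ⧸ A) (a : A) : A :=
  ⟨s x * a * (s x)⁻¹, ‹A.Normal›.conj_mem a a.2 (s x)⟩

theorem conj_eq (hA : IsMulCommutative A) {g h : G} (e : (g : G ⧸ A) = h) {a : G} (ha : a ∈ A) :
    g * a * g⁻¹ = h * a * h⁻¹ := by
  have hm : h⁻¹ * g ∈ A := QuotientGroup.eq.1 e.symm
  have hc : h⁻¹ * g * a = a * (h⁻¹ * g) :=
    congrArg Subtype.val (hA.is_comm.comm (⟨_, hm⟩ : A) ⟨a, ha⟩)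
  calc g * a * g⁻¹ = h * (h⁻¹ * g * a) * g⁻¹ := by group
    _ = h * (a * (h⁻¹ * g)) * g⁻¹ := by rw [hc]
    _ = h * a * h⁻¹ := by group

open scoped IsMulCommutative

variable [hA : IsMulCommutative A]

theorem act_mul (x : G ⧸ A) (a b : A) : act s x (a * b) = act s x a * act s x b := by
  apply Subtype.ext
  show s x * (a * b) * (s x)⁻¹ = (s x * a * (s x)⁻¹) * (s x * b * (s x)⁻¹)
  group

/-- Conjugation as an endomorphism. -/
def actHom (s : G ⧸ A → G) (x : G ⧸ A) : A →* A := MonoidHom.mk' (act s x) (act_mul x)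

theorem act_act (hs : IsSec A s) (x y : G ⧸ A) (a : A) :
    act s x (act s y a) = act s (x * y) a := by
  apply Subtype.ext
  show s x * (s y * a * (s y)⁻¹) * (s x)⁻¹ = s (x * y) * a * (s (x * y))⁻¹
  rw [← conj_eq hA (g := s x * s y) (h := s (x * y))
    (by rw [QuotientGroup.mk_mul, hs, hs, hs]) a.2]
  group

theorem act_one (hs : IsSec A s) (a : A) : act s 1 a = a := by
  apply Subtype.ext
  show s 1 * a * (s 1)⁻¹ = a
  rw [conj_eq hA (g := s 1) (h := 1) (by rw [hs]; rfl) a.2]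
  group

theorem act_congr (hs : IsSec A s) (ht : IsSec A t) (x : G ⧸ A) (a : A) :
    act s x a = act t x a :=
  Subtype.ext (conj_eq hA (by rw [hs, ht]) a.2)

theorem cocycle (hs : IsSec A s) (x y z : G ⧸ A) :
    act s x (fs hs y z) * fs hs x (y * z) = fs hs x y * fs hs (x * y) z := by
  apply Subtype.ext
  show s x * (s y * s z * (s (y * z))⁻¹) * (s x)⁻¹ * (s x * s (y * z) * (s (x * (y * z)))⁻¹) =
    s x * s y * (s (x * y))⁻¹ * (s (x * y) * s z * (s (x * y * z))⁻¹)
  rw [← mul_assoc x y z]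
  group

/-- The `n`-th power of the factor set is a coboundary. -/
def Trivial' (hs : IsSec A s) (n : ℤ) : Prop :=
  ∃ c : G ⧸ A → A, ∀ y z, fs hs y z ^ n = act s y (c z) * c y * (c (y * z))⁻¹

theorem change_aux {M : Type*} [CommGroup M] {a b F E C D X : M}
    (h : a * b * F * E⁻¹ = C * D * X⁻¹) : F = C * b⁻¹ * (D * a⁻¹) * (X * E⁻¹)⁻¹ := by
  have h1 : F = a⁻¹ * b⁻¹ * E * (a * b * F * E⁻¹) := by
    apply Additive.ofMul.injective
    simp only [ofMul_mul, ofMul_inv]
    abel
  rw [h1, h]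
  apply Additive.ofMul.injective
  simp only [ofMul_mul, ofMul_inv]
  abel

theorem Trivial'.change (hs : IsSec A s) (ht : IsSec A t) {n : ℤ} (h : Trivial' ht n) :
    Trivial' hs n := by
  obtain ⟨c, hc⟩ := h
  let e : G ⧸ A → A := fun x => ⟨t x * (s x)⁻¹, by
    rw [← QuotientGroup.eq_one_iff, QuotientGroup.mk_mul, QuotientGroup.mk_inv, hs, ht,
      mul_inv_cancel]⟩
  have hfs : ∀ y z, fs ht y z = e y * act s y (e z) * fs hs y z * (e (y * z))⁻¹ := by
    intro y z
    apply Subtype.ext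
    show t y * t z * (t (y * z))⁻¹ = t y * (s y)⁻¹ * (s y * (t z * (s z)⁻¹) * (s y)⁻¹) *
      (s y * s z * (s (y * z))⁻¹) * (t (y * z) * (s (y * z))⁻¹)⁻¹
    group
  refine ⟨fun x => c x * (e x ^ n)⁻¹, fun y z => ?_⟩
  have h1 := hc y z
  rw [hfs, act_congr ht hs, mul_zpow, mul_zpow, mul_zpow, inv_zpow] at h1
  rw [show act s y (c z * (e z ^ n)⁻¹) = act s y (c z) * ((act s y (e z)) ^ n)⁻¹ from by
    rw [act_mul]
    congr 1
    show actHom s y (e z ^ n)⁻¹ = _
    rw [map_inv, map_zpow]; rfl]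
  exact change_aux h1

/-- A complement on `S` trivializes the index-th power of the factor set. -/
theorem exists_trivial_index [Finite G] (S : Subgroup (G ⧸ A)) (k : S →* G)
    (hk : ∀ σ : S, (k σ : G ⧸ A) = σ) :
    ∃ (s : G ⧸ A → G) (hs : IsSec A s), Trivial' hs (S.index : ℤ) := by
  classical
  let W := Quotient (QuotientGroup.rightRel S)
  let π : G ⧸ A → W := Quotient.mk''
  have hsurj : ∀ x : G ⧸ A, ∃ g : G, (g : G ⧸ A) = x := QuotientGroup.mk_surjective
  choose l hl using hsurj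
  let b : G ⧸ A → G := fun q => if h : q ∈ S then k ⟨q, h⟩ else l q
  have hb : IsSec A b := fun q => by
    simp only [b]; split_ifs with h
    · exact hk ⟨q, h⟩
    · exact hl q
  let R : G ⧸ A → G ⧸ A := fun q => (π q).out
  have hR : ∀ q, q * (R q)⁻¹ ∈ S := fun q =>
    QuotientGroup.rightRel_apply.1 (Quotient.exact' (Quotient.out_eq' (π q)))
  let s : G ⧸ A → G := fun q => k ⟨_, hR q⟩ * b (R q)
  have hs : IsSec A s := fun q => by
    simp only [s]
    rw [QuotientGroup.mk_mul, hk, hb, inv_mul_cancel_right]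
  have hπ : ∀ (σ : S) q, π ((σ : G ⧸ A) * q) = π q := fun σ q =>
    Quotient.sound' (QuotientGroup.rightRel_apply.2 (by simp))
  have hs2 : ∀ (σ : S) q, s ((σ : G ⧸ A) * q) = k σ * s q := by
    intro σ q
    have hRR : R ((σ : G ⧸ A) * q) = R q := congrArg Quotient.out (hπ σ q)
    simp only [s]
    rw [show (⟨_, hR ((σ : G ⧸ A) * q)⟩ : S) = σ * ⟨_, hR q⟩ from
      Subtype.ext (show (σ : G ⧸ A) * q * (R ((σ : G ⧸ A) * q))⁻¹ = σ * (q * (R q)⁻¹) by
        rw [hRR, mul_assoc]), map_mul, hRR, mul_assoc]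
  have hs3 : ∀ σ : S, s σ = k σ := by
    intro σ
    have h1 : R 1 ∈ S := by simpa using hR 1
    have := hs2 σ 1
    rw [mul_one] at this
    rw [this]
    have h2 : s 1 = 1 := by
      simp only [s, b, dif_pos h1]
      rw [← map_mul]
      convert map_one k
      exact Subtype.ext (by simp)
    rw [h2, mul_one]
  have hf : ∀ (σ : S) q, fs hs σ q = 1 := fun σ q => Subtype.ext (by
    show s σ * s q * (s (σ * q))⁻¹ = 1
    rw [hs2, hs3, mul_inv_cancel])
  have hσ : ∀ (σ : S) y z, fs hs (σ * y) z = act s σ (fs hs y z) := by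
    intro σ y z
    have := cocycle hs σ y z
    rw [hf, hf, mul_one, one_mul] at this
    exact this.symm
  let F : W → G ⧸ A → A := fun w z => act s (w.out)⁻¹ (fs hs w.out z)
  have hF : ∀ x z, act s x⁻¹ (fs hs x z) = F (π x) z := by
    intro x z
    show _ = act s (R x)⁻¹ (fs hs (R x) z)
    obtain ⟨σ, hσx⟩ : ∃ σ : S, (σ : G ⧸ A) * R x = x := ⟨⟨_, hR x⟩, inv_mul_cancel_right x _⟩
    conv_lhs => rw [← hσx]
    rw [hσ, act_act hs, mul_inv_rev, inv_mul_cancel_right]
  haveI : Finite W := Quotient.finite _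
  haveI := Fintype.ofFinite W
  refine ⟨s, hs, fun z => ∏ w, F w z, fun y z => ?_⟩
  have key : ∀ w : W, fs hs y z = act s y (F (π (w.out * y)) z) * F w y * (F w (y * z))⁻¹ := by
    intro w
    have h1 : fs hs y z = act s (w.out)⁻¹ (act s w.out (fs hs y z)) := by
      rw [act_act hs, inv_mul_cancel, act_one hs]
    rw [eq_mul_inv_iff_mul_eq, ← hF, act_act hs, h1]
    show _ * act s (w.out)⁻¹ (fs hs w.out (y * z)) = _
    rw [← act_mul, cocycle hs, act_mul, mul_inv_rev, mul_inv_cancel_left, mul_comm]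
  have hperm : Function.Bijective (fun w : W => π (w.out * y)) := by
    refine Finite.injective_iff_bijective.1 fun w w' e => ?_
    have h1 := QuotientGroup.rightRel_apply.1 (Quotient.exact' e)
    rw [← Quotient.out_eq' w, ← Quotient.out_eq' w']
    refine Quotient.sound' (QuotientGroup.rightRel_apply.2 ?_)
    simpa [mul_assoc] using h1
  have hcard : S.index = Fintype.card W := by
    rw [← Nat.card_eq_fintype_card]
    exact (Nat.card_congr (QuotientGroup.quotientRightRelEquivQuotientLeftRel S)).symm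
  calc fs hs y z ^ (S.index : ℤ) = ∏ _w : W, fs hs y z := by
        rw [Finset.prod_const, Finset.card_univ, zpow_natCast, hcard]
    _ = ∏ w : W, act s y (F (π (w.out * y)) z) * F w y * (F w (y * z))⁻¹ :=
        Finset.prod_congr rfl fun w _ => key w
    _ = _ := by
        rw [Finset.prod_mul_distrib, Finset.prod_mul_distrib, Finset.prod_inv_distrib,
          hperm.prod_comp (fun w => act s y (F w z))]
        congr 2
        exact (map_prod (actHom s y) (fun w => F w z) Finset.univ).symm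

theorem complement_of_trivial (hs : IsSec A s) (h : Trivial' hs 1) :
    ∃ K : Subgroup G, K.IsComplement' A := by
  obtain ⟨c, hc⟩ := h
  let t : G ⧸ A →* G := MonoidHom.mk' (fun y => (c y : G)⁻¹ * s y) fun y z => by
    have h1 : ((fs hs y z : A) : G) = ((act s y (c z) : A) : G) * ((c y : A) : G) * ((c (y * z) : A) : G)⁻¹ := by
      have := congrArg Subtype.val (hc y z)
      rw [zpow_one] at this
      exact this
    have h2 : s (y * z) = (s y * s z * (s (y * z))⁻¹)⁻¹ * (s y * s z) := by group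
    change s y * s z * (s (y * z))⁻¹ = (s y * c z * (s y)⁻¹) * (c y : G) * (c (y * z) : G)⁻¹ at h1
    rw [h2, h1]
    group
  have ht : ∀ y, (t y : G ⧸ A) = y := fun y => by
    show (((c y : G)⁻¹ * s y : G) : G ⧸ A) = y
    rw [QuotientGroup.mk_mul, hs, (QuotientGroup.eq_one_iff _).2 (inv_mem (c y).2), one_mul]
  refine ⟨t.range, Subgroup.isComplement'_of_disjoint_and_mul_eq_univ ?_ ?_⟩
  · rw [Subgroup.disjoint_def]
    rintro _ ⟨y, rfl⟩ hy
    have := ht y
    rw [(QuotientGroup.eq_one_iff _).2 hy] at this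
    rw [← this, map_one]
  · refine Set.eq_univ_of_forall fun g => ⟨t g, ⟨_, rfl⟩, (t g)⁻¹ * g, ?_, by group⟩
    exact QuotientGroup.eq.1 (ht g)

/-- Gaschütz: if an abelian normal subgroup has complements over Sylow subgroups, it has one. -/
theorem exists_complement [Finite G]
    (h : ∀ p : ℕ, p.Prime → p ∣ A.index → ∃ S : Subgroup (G ⧸ A), ¬ p ∣ S.index ∧
      ∃ k : S →* G, ∀ σ : S, (k σ : G ⧸ A) = σ) :
    ∃ K : Subgroup G, K.IsComplement' A := by
  classical
  obtain ⟨s0, hs0⟩ : ∃ s : G ⧸ A → G, IsSec A s := ⟨Quotient.out, QuotientGroup.out_eq'⟩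
  let I : AddSubgroup ℤ :=
    { carrier := {n | Trivial' hs0 n}
      zero_mem' := ⟨fun _ => 1, fun y z => by
        rw [zpow_zero, inv_one, mul_one, mul_one]
        exact (map_one (actHom s0 y)).symm⟩
      add_mem' := by
        rintro a b ⟨c, hc⟩ ⟨d, hd⟩
        refine ⟨fun x => c x * d x, fun y z => ?_⟩
        rw [zpow_add, hc, hd, act_mul, mul_inv]
        simp [mul_comm, mul_left_comm, mul_assoc]
      neg_mem' := by
        rintro a ⟨c, hc⟩
        refine ⟨fun x => (c x)⁻¹, fun y z => ?_⟩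
        rw [zpow_neg, hc, show act s0 y (c z)⁻¹ = (act s0 y (c z))⁻¹ from map_inv (actHom s0 y) _,
          mul_inv, mul_inv]
        }
  obtain ⟨d, hd⟩ := Int.subgroup_cyclic I
  rw [← AddSubgroup.zmultiples_eq_closure] at hd
  have hmem : ∀ (S : Subgroup (G ⧸ A)) (k : S →* G), (∀ σ : S, (k σ : G ⧸ A) = σ) →
      d ∣ (S.index : ℤ) := by
    intro S k hk
    obtain ⟨s, hs, ht⟩ := exists_trivial_index S k hk
    have : (S.index : ℤ) ∈ I := ht.change hs0 hs
    rw [hd, Int.mem_zmultiples_iff] at this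
    exact this
  have htop : d ∣ (A.index : ℤ) := by
    have := hmem ⊥ 1 fun σ => by
      rw [MonoidHom.one_apply, QuotientGroup.mk_one, (Subgroup.mem_bot.1 σ.2)]
    rwa [Subgroup.index_bot, ← Subgroup.index_eq_card] at this
  have hd1 : d.natAbs = 1 := by
    by_contra hne
    obtain ⟨p, hp, hpd⟩ := Nat.exists_prime_and_dvd hne
    obtain ⟨S, hS, k, hk⟩ := h p hp (hpd.trans (Int.natAbs_dvd_natAbs.2 htop |>.trans (by simp)))
    exact hS (hpd.trans (Int.natAbs_dvd_natAbs.2 (hmem S k hk) |>.trans (by simp)))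
  have h1 : (1 : ℤ) ∈ I := by
    rw [hd, Int.mem_zmultiples_iff]
    exact Int.natAbs_dvd.1 (by rw [hd1]; simp)
  exact complement_of_trivial hs0 h1

end Cfsg.Agent.FGS3.GaschutzSplit
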