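import Cfsg.Agent.Core.Hall
import Cfsg.Agent.Core.MinimalNormal
import Cfsg.Agent.Chars.GlaubermanSolvable
import Mathlib

/-!
The number of Hall subgroups of a solvable group as a product of prime powers.
-/

set_option autoImplicit false

namespace Cfsg.Agent.FGS3.HallCount

open Subgroup

universe u

/-- The properties required of a factor. -/
def Ok (G : Type u) [Group G] (m f : ℕ) : Prop :=
  (∃ q e : ℕ, q.Prime ∧ f = q ^ e) ∧
    (∃ K L : Subgroup G, K.Normal ∧ L.Normal ∧ K < L ∧
      (∀ M : Subgroup G, M.Normal → K ≤ M → M ≤ L → M = K ∨ M = L) ∧ f ∣ K.relIndex L) ∧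
    (∃ q : ℕ, q.Prime ∧ q ∣ m ∧ f ≡ 1 [MOD q])

lemma Ok.of_quotient {G : Type u} [Group G] [Finite G] (N : Subgroup G) [N.Normal] {m m' f : ℕ}
    (hm : m' ∣ m) (h : Ok (G ⧸ N) m' f) : Ok G m f := by
  obtain ⟨h1, ⟨K, L, hK, hL, hKL, hchief, hf⟩, q, hq, hqm, hfq⟩ := h
  haveI := hK
  haveI := hL
  set π := QuotientGroup.mk' N
  have hsurj : Function.Surjective π := QuotientGroup.mk'_surjective N
  refine ⟨h1, ⟨K.comap π, L.comap π, inferInstance, inferInstance,
    (Subgroup.comap_lt_comap_of_surjective hsurj).mpr hKL, fun M hM h1 h2 => ?_, ?_⟩,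
    q, hq, hqm.trans hm, hfq⟩
  · have hNM : π.ker ≤ M := le_trans (MonoidHom.ker_le_comap π K) h1
    have hMn : (M.map π).Normal := Subgroup.Normal.map hM π hsurj
    have h1' := Subgroup.map_mono (f := π) h1
    have h2' := Subgroup.map_mono (f := π) h2
    rw [Subgroup.map_comap_eq_self_of_surjective hsurj] at h1' h2'
    rcases hchief _ hMn h1' h2' with h | h
    · left; rw [← h, Subgroup.comap_map_eq_self hNM]
    · right; rw [← h, Subgroup.comap_map_eq_self hNM]
  · rwa [Subgroup.relIndex_comap, Subgroup.map_comap_eq_self_of_surjective hsurj]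

variable {G : Type u} [Group G] [Finite G]

/-- The index of the fixed points of a coprime solvable group on an abelian `p`-subgroup. -/
theorem relIndex_centralizer_factor {p : ℕ} [Fact p.Prime] (N H : Subgroup G) [N.Normal]
    (hNp : IsPGroup p N) (hNc : IsMulCommutative N) (hHs : Group.IsSolvable H)
    (hcop : ¬ p ∣ Nat.card H) (W : Subgroup G)
    (hCW : N ⊓ centralizer (H : Set G) ≤ W) (hWN : W ≤ N)
    (hW : ∀ h ∈ H, ∀ w ∈ W, h * w * h⁻¹ ∈ W) :
    ∃ L : List ℕ, W.relIndex N = L.prod ∧
      ∀ f ∈ L, (∃ e, f = p ^ e) ∧ f ∣ Nat.card N ∧ ∃ q, q.Prime ∧ q ∣ Nat.card H ∧ f ≡ 1 [MOD q] := by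
  classical
  induction hcard : Nat.card N - Nat.card W using Nat.strong_induction_on generalizing W with
  | h x ih =>
  by_cases hWN' : W = N
  · refine ⟨[], by rw [hWN', Subgroup.relIndex_self]; rfl, by simp⟩
  -- a minimal invariant subgroup above `W`
  obtain ⟨U, ⟨hWU, hUN, hU⟩, hmin⟩ := (Set.toFinite
    {U : Subgroup G | W < U ∧ U ≤ N ∧ ∀ h ∈ H, ∀ w ∈ U, h * w * h⁻¹ ∈ U}).exists_minimal
    ⟨N, lt_of_le_of_ne hWN hWN', le_rfl, fun h _ w hw => Subgroup.Normal.conj_mem inferInstance w hw h⟩
  have hlt : Nat.card N - Nat.card U < x := by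
    have h1 : Nat.card W < Nat.card U := by
      refine lt_of_le_of_ne (Subgroup.card_le_of_le hWU.le) fun heq => hWU.ne ?_
      exact Subgroup.eq_of_le_of_card_ge hWU.le heq.ge
    have h2 := Subgroup.card_le_of_le hUN
    omega
  obtain ⟨L, hL, hLok⟩ := ih _ hlt U (hCW.trans hWU.le) hUN hU rfl
  refine ⟨W.relIndex U :: L, by rw [List.prod_cons, ← hL, Subgroup.relIndex_mul_relIndex _ _ _ hWU.le hUN],
    fun f hf => ?_⟩
  rcases List.mem_cons.mp hf with rfl | hf
  swap
  · exact hLok f hf
  obtain ⟨eN, heN⟩ := hNp.exists_card_eq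
  have hdvd : W.relIndex U ∣ Nat.card N :=
    (Subgroup.relIndex_dvd_card W U).trans (Subgroup.card_dvd_of_le hUN)
  refine ⟨?_, hdvd, ?_⟩
  · obtain ⟨e, -, he⟩ := (Nat.dvd_prime_pow Fact.out).mp (heN ▸ hdvd)
    exact ⟨e, he⟩
  -- the action of `H` on `U / W`
  letI : CommGroup U :=
    { (inferInstance : Group U) with
      mul_comm := fun a b => Subtype.ext
        (congrArg Subtype.val (hNc.is_comm.comm ⟨(a : G), hUN a.2⟩ ⟨(b : G), hUN b.2⟩) : (a : G) * b = b * a) }
  let W' : Subgroup U := W.subgroupOf U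
  let cj : H → (U →* U) := fun h =>
    { toFun := fun u => ⟨h * u * (h : G)⁻¹, hU h h.2 u u.2⟩
      map_one' := Subtype.ext (by simp)
      map_mul' := fun a b => Subtype.ext (by
        show (h : G) * ((a : G) * b) * (h : G)⁻¹ = h * a * (h : G)⁻¹ * (h * b * (h : G)⁻¹)
        group) }
  let bar : H → (U ⧸ W' →* U ⧸ W') := fun h => QuotientGroup.map W' W' (cj h) (fun w hw => hW h h.2 w hw)
  have hbar_mul : ∀ (a b : H) (z : U ⧸ W'), bar (a * b) z = bar a (bar b z) := by
    intro a b z
    induction z using QuotientGroup.induction_on with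
    | H v =>
      show QuotientGroup.mk' W' (cj (a * b) v) = QuotientGroup.mk' W' (cj a (cj b v))
      congr 1
      apply Subtype.ext
      show ((a * b : H) : G) * v * ((a * b : H) : G)⁻¹ = a * (b * v * (b : G)⁻¹) * (a : G)⁻¹
      push_cast
      group
  have hbar_one : ∀ z : U ⧸ W', bar 1 z = z := by
    intro z
    induction z using QuotientGroup.induction_on with
    | H v =>
      show QuotientGroup.mk' W' (cj 1 v) = QuotientGroup.mk' W' v
      congr 1
      apply Subtype.ext
      show ((1 : H) : G) * v * ((1 : H) : G)⁻¹ = v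
      simp
  let ψ : H →* MulAut (U ⧸ W') :=
    { toFun := fun h =>
        { toFun := bar h
          invFun := bar h⁻¹
          left_inv := fun z => by rw [← hbar_mul, inv_mul_cancel, hbar_one]
          right_inv := fun z => by rw [← hbar_mul, mul_inv_cancel, hbar_one]
          map_mul' := map_mul (bar h) }
      map_one' := MulEquiv.ext fun z => hbar_one z
      map_mul' := fun a b => MulEquiv.ext fun z => hbar_mul a b z }
  have hψ : ∀ (h : H) (u : U), ψ h (QuotientGroup.mk' W' u) = QuotientGroup.mk' W' (cj h u) :=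
    fun h u => rfl
  -- the action is non-trivial
  haveI : Nontrivial ψ.range := by
    rw [Subgroup.nontrivial_iff_ne_bot]
    intro htriv
    have hall : ∀ (h : H) (u : U), QuotientGroup.mk' W' (cj h u) = QuotientGroup.mk' W' u := by
      intro h u
      rw [← hψ, show ψ h = 1 from Subgroup.mem_bot.mp (htriv ▸ ⟨h, rfl⟩)]
      rfl
    obtain ⟨u, huU, huW⟩ := SetLike.not_le_iff_exists.mp hWU.not_ge
    haveI : Fintype H := Fintype.ofFinite H
    let u' : U := ⟨u, huU⟩
    set z : U := ∏ h : H, cj h u' with hz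
    have hzC : (z : G) ∈ N ⊓ centralizer (H : Set G) := by
      refine ⟨hUN z.2, mem_centralizer_iff.mpr fun g hg => ?_⟩
      have hfix : cj ⟨g, hg⟩ z = z := by
        rw [hz, map_prod]
        refine Fintype.prod_equiv (Equiv.mulLeft (⟨g, hg⟩ : H)) _ _ fun h => ?_
        apply Subtype.ext
        show g * ((h : G) * u * (h : G)⁻¹) * g⁻¹ = (g * h) * u * (g * (h : G))⁻¹
        group
      exact mul_inv_eq_iff_eq_mul.mp (congrArg Subtype.val hfix : g * (z : G) * g⁻¹ = z)
    have h1 : QuotientGroup.mk' W' z = QuotientGroup.mk' W' u' ^ Nat.card H := by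
      rw [hz, map_prod, Finset.prod_congr rfl fun h _ => hall h u', Finset.prod_const, Finset.card_univ,
        Nat.card_eq_fintype_card]
    rw [QuotientGroup.mk'_apply, (QuotientGroup.eq_one_iff z).mpr (hCW hzC : (z : G) ∈ W)] at h1
    have h2 : orderOf (QuotientGroup.mk' W' u') ∣ p ^ eN := by
      refine (orderOf_map_dvd _ u').trans ?_
      rw [← heN, ← Subgroup.orderOf_coe, ← Subgroup.orderOf_mk u (hUN huU)]
      exact orderOf_dvd_natCard _
    have h3 : orderOf (QuotientGroup.mk' W' u') = 1 := Nat.eq_one_of_dvd_coprimes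
      (Nat.Coprime.pow_left eN ((Fact.out : p.Prime).coprime_iff_not_dvd.mpr hcop)) h2
      (orderOf_dvd_of_pow_eq_one h1.symm)
    exact huW ((QuotientGroup.eq_one_iff u').mp (orderOf_eq_one_iff.mp h3))
  haveI := hHs
  have hRs : Group.IsSolvable ψ.range :=
    Group.isSolvable_of_surjective (f := ψ.rangeRestrict) ψ.rangeRestrict_surjective
  obtain ⟨T, q, hq, hTn, hTq, hqT⟩ := Cfsg.Agent.Chars.exists_normal_pgroup (A := ψ.range) hRs
  haveI := Fact.mk hq
  refine ⟨q, hq, hqT.trans ((Subgroup.card_subgroup_dvd_card T).trans (Subgroup.card_range_dvd ψ)), ?_⟩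
  let T' : Subgroup (MulAut (U ⧸ W')) := T.map ψ.range.subtype
  have hT'q : IsPGroup q T' := hTq.map _
  haveI : Finite (MulAut (U ⧸ W')) := Finite.of_injective _ DFunLike.coe_injective
  have hmod := hT'q.card_modEq_card_fixedPoints (U ⧸ W')
  have hfixed : MulAction.fixedPoints T' (U ⧸ W') = {1} := by
    -- the preimage of the fixed points is invariant
    let F : Subgroup G :=
      { carrier := {v | ∃ hv : v ∈ U, QuotientGroup.mk' W' ⟨v, hv⟩ ∈ MulAction.fixedPoints T' (U ⧸ W')}
        one_mem' := ⟨one_mem _, fun t => by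
          show (t : MulAut (U ⧸ W')) (QuotientGroup.mk' W' (1 : U)) = _
          rw [map_one, map_one]; rfl⟩
        mul_mem' := by
          rintro a b ⟨ha, ha'⟩ ⟨hb, hb'⟩
          refine ⟨mul_mem ha hb, fun t => ?_⟩
          show (t : MulAut (U ⧸ W')) (QuotientGroup.mk' W' ((⟨a, ha⟩ : U) * ⟨b, hb⟩)) = _
          rw [map_mul, map_mul]
          exact congrArg₂ (· * ·) (ha' t) (hb' t)
        inv_mem' := by
          rintro a ⟨ha, ha'⟩
          refine ⟨inv_mem ha, fun t => ?_⟩
          show (t : MulAut (U ⧸ W')) (QuotientGroup.mk' W' ((⟨a, ha⟩ : U)⁻¹)) = _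
          rw [map_inv, map_inv]
          exact congrArg (·⁻¹) (ha' t) }
    have hWF : W ≤ F := fun w hw => ⟨hWU.le hw, fun t => by
      show (t : MulAut (U ⧸ W')) (QuotientGroup.mk' W' ⟨w, hWU.le hw⟩) = _
      rw [show QuotientGroup.mk' W' (⟨w, hWU.le hw⟩ : U) = 1 from (QuotientGroup.eq_one_iff _).mpr hw,
        map_one]⟩
    have hFinv : ∀ g ∈ H, ∀ v ∈ F, g * v * g⁻¹ ∈ F := by
      rintro g hg v ⟨hv, hv'⟩
      refine ⟨hU g hg v hv, fun t => ?_⟩
      show (t : MulAut (U ⧸ W')) (QuotientGroup.mk' W' (cj ⟨g, hg⟩ ⟨v, hv⟩)) =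
        QuotientGroup.mk' W' (cj ⟨g, hg⟩ ⟨v, hv⟩)
      rw [← hψ]
      obtain ⟨_, s, hs, rfl⟩ := t
      have hs' := hTn.conj_mem s hs ((ψ.rangeRestrict ⟨g, hg⟩)⁻¹)
      rw [inv_inv] at hs'
      have h4 : ((((ψ.rangeRestrict ⟨g, hg⟩)⁻¹ * s * ψ.rangeRestrict ⟨g, hg⟩ : ψ.range)) :
          MulAut (U ⧸ W')) (QuotientGroup.mk' W' ⟨v, hv⟩) = QuotientGroup.mk' W' ⟨v, hv⟩ :=
        hv' ⟨_, mem_map_of_mem ψ.range.subtype hs'⟩
      rw [Subgroup.coe_mul, Subgroup.coe_mul, MulAut.mul_apply, MulAut.mul_apply, Subgroup.coe_inv,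
        MonoidHom.coe_rangeRestrict, MulAut.inv_apply, MulEquiv.symm_apply_eq] at h4
      exact h4
    have hFU : F ≤ U := fun v hv => hv.1
    rcases lt_or_eq_of_le hWF with hlt' | heq
    · exfalso
      have hFU' : F = U := le_antisymm hFU (hmin ⟨hlt', hFU.trans hUN, hFinv⟩ hFU)
      have hTbot : T = ⊥ := by
        rw [eq_bot_iff]
        intro s hs
        rw [Subgroup.mem_bot]
        refine Subtype.ext (MulEquiv.ext fun z => ?_)
        induction z using QuotientGroup.induction_on with
        | H v =>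
          obtain ⟨hv, hv'⟩ := hFU'.ge v.2
          exact hv' ⟨_, mem_map_of_mem ψ.range.subtype hs⟩
      rw [hTbot, Subgroup.card_bot, Nat.dvd_one] at hqT
      exact hq.one_lt.ne' hqT
    · ext z
      constructor
      · intro hz
        induction z using QuotientGroup.induction_on with
        | H v =>
          have hvF : (v : G) ∈ F := ⟨v.2, hz⟩
          rw [← heq] at hvF
          exact (QuotientGroup.eq_one_iff v).mpr hvF
      · rintro rfl t
        show (t : MulAut (U ⧸ W')) 1 = 1
        exact map_one _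
  rw [hfixed, Nat.card_coe_set_eq, Set.ncard_singleton] at hmod
  show W.relIndex U ≡ 1 [MOD q]
  rw [Subgroup.relIndex, Subgroup.index_eq_card]
  exact hmod

lemma isPiHall_of_card {m n : ℕ} (hG : Nat.card G = m * n) (hmn : m.Coprime n) {H : Subgroup G}
    (hH : Nat.card H = m) : IsPiHall {q | q ∣ m} H := by
  refine ⟨fun q _ hq => hH ▸ hq, fun q hq hqm hqi => ?_⟩
  have h := H.card_mul_index
  rw [hH, hG] at h
  have hm : 0 < m := hH ▸ Nat.card_pos
  rw [Nat.eq_of_mul_eq_mul_left hm h] at hqi
  exact hq.one_lt.ne' (Nat.eq_one_of_dvd_coprimes hmn hqm hqi)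

lemma exists_card_eq [Group.IsSolvable G] {m n : ℕ} (hG : Nat.card G = m * n) (hmn : m.Coprime n) :
    ∃ H : Subgroup G, Nat.card H = m := by
  obtain ⟨H, hH1, hH2⟩ := Core.exists_isPiHall_of_isSolvable (G := G) {q | q ∣ m}
  refine ⟨H, ?_⟩
  have h := H.card_mul_index
  rw [hG] at h
  have hco1 : Nat.Coprime (Nat.card H) n := Nat.coprime_of_dvd fun q hq hqH hqn =>
    hq.one_lt.ne' (Nat.eq_one_of_dvd_coprimes hmn (hH1 q hq hqH) hqn)
  have hco2 : Nat.Coprime m H.index := Nat.coprime_of_dvd fun q hq hqm hqi => hH2 q hq hqm hqi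
  exact Nat.dvd_antisymm (hco1.dvd_of_dvd_mul_right ⟨H.index, h.symm⟩)
    (hco2.dvd_of_dvd_mul_right (h.symm ▸ dvd_mul_right m n))

lemma exists_conj_of_card [Group.IsSolvable G] {m n : ℕ} (hG : Nat.card G = m * n)
    (hmn : m.Coprime n) {H K : Subgroup G} (hH : Nat.card H = m) (hK : Nat.card K = m) :
    ∃ g : G, K = H.map (MulAut.conj g).toMonoidHom := by
  obtain ⟨g, hg⟩ := Core.exists_conj_eq_of_isPiHall_of_isSolvable (isPiHall_of_card hG hmn hH)
    (isPiHall_of_card hG hmn hK)
  exact ⟨g, hg.symm⟩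

theorem count_factor (G : Type u) [Group G] [Finite G] [Group.IsSolvable G] (m n : ℕ)
    (hG : Nat.card G = m * n) (hmn : m.Coprime n) :
    ∃ L : List ℕ, Nat.card {H : Subgroup G // Nat.card H = m} = L.prod ∧ ∀ f ∈ L, Ok G m f := by
  classical
  induction hc : Nat.card G using Nat.strong_induction_on generalizing G m n with
  | h x ih =>
  rcases subsingleton_or_nontrivial G with hs | hnt
  · have hm : m = 1 := by
      rw [Nat.card_unique] at hG
      exact Nat.eq_one_of_mul_eq_one_right hG.symm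
    subst hm
    refine ⟨[], ?_, by simp⟩
    haveI : Unique {H : Subgroup G // Nat.card H = 1} :=
      ⟨⟨⟨⊥, Subgroup.card_bot⟩⟩, fun H => Subtype.ext (Subgroup.card_eq_one.mp H.2)⟩
    rw [Nat.card_unique]; rfl
  obtain ⟨N, hN⟩ := Core.exists_isMinNormal (G := G)
  obtain ⟨hNc, p, hp, -, hNp⟩ := hN.elementaryAbelian_of_isSolvable
  haveI := Fact.mk hp
  haveI := hN.1
  obtain ⟨e, he⟩ := hNp.exists_card_eq
  have hN1 : 1 < Nat.card N := (Subgroup.one_lt_card_iff_ne_bot N).mpr hN.2.1
  set π := QuotientGroup.mk' N with hπ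
  have hsurj : Function.Surjective π := QuotientGroup.mk'_surjective N
  have hQlt : Nat.card (G ⧸ N) < x := by
    rw [← hc, N.card_eq_card_quotient_mul_card_subgroup]
    exact lt_mul_of_one_lt_right Nat.card_pos hN1
  have hkermap : ∀ H : Subgroup G, Nat.card (H.map π) * Nat.card (N ⊓ H : Subgroup G) = Nat.card H := by
    intro H
    rw [← Subgroup.relIndex_ker, QuotientGroup.ker_mk', mul_comm, Subgroup.relIndex,
      ← Subgroup.card_mul_index (N.subgroupOf H)]
    congr 1
    rw [← Subgroup.card_map_of_injective H.subtype_injective, Subgroup.subgroupOf_map_subtype]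
  by_cases hpm : p ∣ m
  · -- `N` lies in every subgroup of order `m`
    have hNle : ∀ H : Subgroup G, Nat.card H = m → N ≤ H := by
      intro H hH
      obtain ⟨K, hK, hNK⟩ := Core.exists_isPiHall_ge_of_isSolvable (π := {q | q ∣ m}) (K := N) (by
        intro q hq hqN
        rw [he] at hqN
        rw [(Nat.prime_dvd_prime_iff_eq hq hp).mp (hq.dvd_of_dvd_pow hqN)]
        exact hpm)
      obtain ⟨g, hg⟩ := Core.exists_conj_eq_of_isPiHall_of_isSolvable hK (isPiHall_of_card hG hmn hH)
      rw [← hg]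
      intro v hv
      refine ⟨g⁻¹ * v * g, hNK (by simpa using Subgroup.Normal.conj_mem inferInstance v hv g⁻¹), ?_⟩
      show g * (g⁻¹ * v * g) * g⁻¹ = v
      group
    obtain ⟨H₀, hH₀⟩ := exists_card_eq hG hmn
    have hdm : Nat.card N ∣ m := hH₀ ▸ Subgroup.card_dvd_of_le (hNle H₀ hH₀)
    obtain ⟨m', hm'⟩ := hdm
    have hG' : Nat.card (G ⧸ N) = m' * n := by
      have h := N.card_eq_card_quotient_mul_card_subgroup
      rw [hG, hm'] at h
      refine Nat.eq_of_mul_eq_mul_right (Nat.zero_lt_of_lt hN1) ?_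
      rw [← h]; ring
    have hmn' : m'.Coprime n := Nat.Coprime.coprime_dvd_left ⟨Nat.card N, by rw [hm']; ring⟩ hmn
    obtain ⟨L, hL, hLok⟩ := ih _ hQlt (G ⧸ N) m' n hG' hmn' rfl
    refine ⟨L, ?_, fun f hf => (hLok f hf).of_quotient N ⟨Nat.card N, by rw [hm']; ring⟩⟩
    rw [← hL]
    have hcardmap : ∀ H : Subgroup G, N ≤ H → (Nat.card (H.map π) * Nat.card N = Nat.card H) := fun H h => by
      have := hkermap H
      rwa [inf_of_le_left h] at this
    refine Nat.card_congr
      { toFun := fun H => ⟨H.1.map π, Nat.eq_of_mul_eq_mul_right (Nat.zero_lt_of_lt hN1)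
          ((hcardmap _ (hNle _ H.2)).trans (by rw [H.2, hm', mul_comm]))⟩
        invFun := fun K => ⟨K.1.comap π, by
          have h := hcardmap (K.1.comap π) ((QuotientGroup.ker_mk' N).symm.le.trans (MonoidHom.ker_le_comap _ _))
          rw [Subgroup.map_comap_eq_self_of_surjective hsurj, K.2] at h
          rw [← h, hm', mul_comm]⟩
        left_inv := fun H => Subtype.ext (Subgroup.comap_map_eq_self (by
          rw [QuotientGroup.ker_mk']; exact hNle _ H.2))
        right_inv := fun K => Subtype.ext (Subgroup.map_comap_eq_self_of_surjective hsurj _) }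
  · -- `N` is complemented by every subgroup of order `m` in their product
    have hcopN : Nat.Coprime (Nat.card N) m := he ▸ (hp.coprime_iff_not_dvd.mpr hpm).pow_left e
    have hinf : ∀ H : Subgroup G, Nat.card H = m → N ⊓ H = ⊥ := fun H hH =>
      Subgroup.inf_eq_bot_of_coprime (hH ▸ hcopN)
    have hmap : ∀ H : Subgroup G, Nat.card H = m → Nat.card (H.map π) = m := by
      intro H hH
      have := hkermap H
      rwa [hinf H hH, Subgroup.card_bot, mul_one, hH] at this
    have hdn : Nat.card N ∣ n := hcopN.dvd_of_dvd_mul_left (hG ▸ Subgroup.card_subgroup_dvd_card N)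
    obtain ⟨n', hn'⟩ := hdn
    have hG' : Nat.card (G ⧸ N) = m * n' := by
      have h := N.card_eq_card_quotient_mul_card_subgroup
      rw [hG, hn'] at h
      refine Nat.eq_of_mul_eq_mul_right (Nat.zero_lt_of_lt hN1) ?_
      rw [← h]; ring
    have hmn' : m.Coprime n' := Nat.Coprime.coprime_dvd_right ⟨Nat.card N, by rw [hn']; ring⟩ hmn
    obtain ⟨L, hL, hLok⟩ := ih _ hQlt (G ⧸ N) m n' hG' hmn' rfl
    obtain ⟨H₀, hH₀⟩ := exists_card_eq hG hmn
    set c := (N ⊓ centralizer (H₀ : Set G)).relIndex N with hcdef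
    obtain ⟨L', hL', hL'ok⟩ := relIndex_centralizer_factor N H₀ hNp hNc inferInstance (hH₀ ▸ hpm)
      (N ⊓ centralizer (H₀ : Set G)) le_rfl inf_le_left (fun h hh w hw =>
        ⟨Subgroup.Normal.conj_mem inferInstance w hw.1 h, by
          have h1 : Commute h w := (mem_centralizer_iff.mp hw.2 h hh)
          rw [h1.eq, mul_inv_cancel_right]; exact hw.2⟩)
    refine ⟨L ++ L', ?_, fun f hf => ?_⟩
    swap
    · rcases List.mem_append.mp hf with hf | hf
      · exact (hLok f hf).of_quotient N dvd_rfl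
      · obtain ⟨⟨d, hd⟩, hdN, q, hq, hqH, hfq⟩ := hL'ok f hf
        exact ⟨⟨p, d, hp, hd⟩, ⟨⊥, N, inferInstance, inferInstance, bot_lt_iff_ne_bot.mpr hN.2.1,
          fun M hM _ hMN => hN.2.2 M hM hMN, by rwa [Subgroup.relIndex_bot_left]⟩,
          q, hq, hH₀ ▸ hqH, hfq⟩
    rw [List.prod_append, ← hL, ← hL']
    -- the fibres of the reduction modulo `N`
    let red : {H : Subgroup G // Nat.card H = m} → {K : Subgroup (G ⧸ N) // Nat.card K = m} :=
      fun H => ⟨H.1.map π, hmap H.1 H.2⟩
    have hfib : ∀ K : {K : Subgroup (G ⧸ N) // Nat.card K = m},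
        Nat.card {H : {H : Subgroup G // Nat.card H = m} // red H = K} = c := by
      intro K
      let M := K.1.comap π
      have hMcard : Nat.card M = m * Nat.card N := by
        have h := hkermap M
        rw [inf_of_le_left (show N ≤ M from (QuotientGroup.ker_mk' N).symm.le.trans (MonoidHom.ker_le_comap _ _)),
          Subgroup.map_comap_eq_self_of_surjective hsurj, K.2] at h
        exact h.symm
      obtain ⟨H', hH'⟩ := exists_card_eq (G := M) hMcard hcopN.symm
      set H := H'.map M.subtype with hHdef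
      have hH : Nat.card H = m := by
        rw [hHdef, Subgroup.card_map_of_injective M.subtype_injective, hH']
      have hred : red ⟨H, hH⟩ = K := by
        apply Subtype.ext
        refine Subgroup.eq_of_le_of_card_ge ?_ (by rw [hmap H hH, K.2])
        rintro _ ⟨_, ⟨v, -, rfl⟩, rfl⟩
        exact v.2
      have horb : ∀ Y : Subgroup G, (∃ hY : Nat.card Y = m, red ⟨Y, hY⟩ = K) ↔
          ∃ v ∈ N, Y = H.map (MulAut.conj v).toMonoidHom := by
        intro Y
        constructor
        · rintro ⟨hY, hYK⟩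
          have hYM : Y ≤ M := fun y hy => by
            show π y ∈ K.1
            rw [← hYK]; exact mem_map_of_mem π hy
          have hY' : Nat.card (Y.subgroupOf M) = m :=
            (Nat.card_congr (Subgroup.subgroupOfEquivOfLe hYM).toEquiv).trans hY
          obtain ⟨g, hg⟩ := exists_conj_of_card (G := M) hMcard hcopN.symm hH' hY'
          have hgM : (g : G) ∈ ((N ⊔ H : Subgroup G) : Set G) := by
            show (g : G) ∈ N ⊔ H
            have hle : N ⊔ H = M := by
              refine le_antisymm (sup_le ((QuotientGroup.ker_mk' N).symm.le.trans (MonoidHom.ker_le_comap _ _))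
                (Subgroup.map_subtype_le _)) fun v hv => ?_
              have h1 : π v ∈ H.map π := by
                have h := congrArg Subtype.val hred
                change H.map π = K.1 at h
                rw [h]; exact hv
              obtain ⟨w, hw, hwv⟩ := h1
              have h2 : w⁻¹ * v ∈ N := QuotientGroup.eq.mp hwv
              have := mul_mem (mem_sup_right hw : w ∈ N ⊔ H) (mem_sup_left h2 : w⁻¹ * v ∈ N ⊔ H)
              rwa [mul_inv_cancel_left] at this
            rw [hle]; exact g.2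
          rw [Subgroup.normal_mul, Set.mem_mul] at hgM
          obtain ⟨v, hv, w, hw, hvw⟩ := hgM
          refine ⟨v, hv, ?_⟩
          have h3 : Y = H.map (MulAut.conj (g : G)).toMonoidHom := by
            have h := congrArg (Subgroup.map M.subtype) hg
            rw [Subgroup.subgroupOf_map_subtype, inf_of_le_left hYM, Subgroup.map_map] at h
            rw [h, hHdef, Subgroup.map_map]
            congr 1
          rw [h3, ← hvw, map_mul, show (MulAut.conj v * MulAut.conj w).toMonoidHom =
            (MulAut.conj v).toMonoidHom.comp (MulAut.conj w).toMonoidHom from rfl, ← Subgroup.map_map]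
          congr 1
          refine Subgroup.eq_of_le_of_card_ge ?_
            (by rw [Subgroup.card_map_of_injective (f := (MulAut.conj w).toMonoidHom) (MulAut.conj w).injective])
          rintro _ ⟨y, hy, rfl⟩
          exact mul_mem (mul_mem hw hy) (inv_mem hw)
        · rintro ⟨v, hv, rfl⟩
          refine ⟨by rw [Subgroup.card_map_of_injective (MulAut.conj v).injective, hH], ?_⟩
          rw [← hred]
          apply Subtype.ext
          show (H.map (MulAut.conj v).toMonoidHom).map π = H.map π
          rw [Subgroup.map_map]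
          congr 1
          ext y
          show π (v * y * v⁻¹) = π y
          rw [map_mul, map_mul, show π v = 1 from (QuotientGroup.eq_one_iff v).mpr hv, map_inv,
            show π v = 1 from (QuotientGroup.eq_one_iff v).mpr hv, inv_one, one_mul, mul_one]
      have hstab : ∀ v ∈ N, ∀ w ∈ N, (H.map (MulAut.conj v).toMonoidHom = H.map (MulAut.conj w).toMonoidHom ↔
          v⁻¹ * w ∈ N ⊓ centralizer (H : Set G)) := by
        intro v hv w hw
        have hu : v⁻¹ * w ∈ N := mul_mem (inv_mem hv) hw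
        constructor
        · intro heq
          refine ⟨hu, mem_centralizer_iff.mpr fun y hy => ?_⟩
          have hmem : (MulAut.conj w).toMonoidHom y ∈ H.map (MulAut.conj v).toMonoidHom :=
            heq ▸ mem_map_of_mem _ hy
          obtain ⟨z, hz, hzy⟩ := hmem
          have hzy' : v * z * v⁻¹ = w * y * w⁻¹ := hzy
          have hz' : z = v⁻¹ * w * y * (v⁻¹ * w)⁻¹ := by
            calc z = v⁻¹ * (v * z * v⁻¹) * v := by group
              _ = _ := by rw [hzy']; group
          have h4 : v⁻¹ * w * y * (v⁻¹ * w)⁻¹ * y⁻¹ ∈ N ⊓ H :=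
            ⟨by
              rw [show v⁻¹ * w * y * (v⁻¹ * w)⁻¹ * y⁻¹ = v⁻¹ * w * (y * (v⁻¹ * w)⁻¹ * y⁻¹) by group]
              exact mul_mem hu (Subgroup.Normal.conj_mem inferInstance _ (inv_mem hu) y),
             mul_mem (hz' ▸ hz) (Subgroup.inv_mem _ hy)⟩
          rw [hinf H hH, Subgroup.mem_bot, mul_inv_eq_one, mul_inv_eq_iff_eq_mul] at h4
          exact h4.symm
        · intro hmem
          rw [show w = v * (v⁻¹ * w) by group, map_mul,
            show (MulAut.conj v * MulAut.conj (v⁻¹ * w)).toMonoidHom =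
            (MulAut.conj v).toMonoidHom.comp (MulAut.conj (v⁻¹ * w)).toMonoidHom from rfl, ← Subgroup.map_map]
          congr 1
          ext y
          constructor
          · intro hy
            refine ⟨y, hy, ?_⟩
            show v⁻¹ * w * y * (v⁻¹ * w)⁻¹ = y
            rw [← mem_centralizer_iff.mp hmem.2 y hy, mul_inv_cancel_right]
          · rintro ⟨z, hz, rfl⟩
            show v⁻¹ * w * z * (v⁻¹ * w)⁻¹ ∈ H
            rw [← mem_centralizer_iff.mp hmem.2 z hz, mul_inv_cancel_right]
            exact hz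
      have hcard : Nat.card {H : {H : Subgroup G // Nat.card H = m} // red H = K} =
          (N ⊓ centralizer (H : Set G)).relIndex N := by
        rw [Subgroup.relIndex, Subgroup.index_eq_card]
        let D := (N ⊓ centralizer (H : Set G)).subgroupOf N
        refine (Nat.card_eq_of_bijective (fun q : N ⧸ D =>
          (⟨⟨H.map (MulAut.conj ((Quotient.out q : N) : G)).toMonoidHom,
              ((horb _).mpr ⟨_, (Quotient.out q).2, rfl⟩).1⟩,
            ((horb _).mpr ⟨_, (Quotient.out q).2, rfl⟩).2⟩ :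
            {H : {H : Subgroup G // Nat.card H = m} // red H = K})) ⟨?_, ?_⟩).symm
        · intro a b hab
          have h5 := congrArg (fun t => t.1.1) hab
          rw [← QuotientGroup.out_eq' a, ← QuotientGroup.out_eq' b]
          exact QuotientGroup.eq.mpr ((hstab _ (Quotient.out a).2 _ (Quotient.out b).2).mp h5)
        · rintro ⟨⟨Y, hY⟩, hYK⟩
          obtain ⟨v, hv, rfl⟩ := (horb Y).mp ⟨hY, hYK⟩
          refine ⟨QuotientGroup.mk (⟨v, hv⟩ : N), Subtype.ext (Subtype.ext ?_)⟩
          show H.map (MulAut.conj _).toMonoidHom = H.map (MulAut.conj v).toMonoidHom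
          refine (hstab _ (Quotient.out (QuotientGroup.mk (⟨v, hv⟩ : N) : N ⧸ D)).2 _ hv).mpr ?_
          obtain ⟨d, hd⟩ := QuotientGroup.mk_out_eq_mul D (⟨v, hv⟩ : N)
          have h6 : (Quotient.out (QuotientGroup.mk (⟨v, hv⟩ : N) : N ⧸ D))⁻¹ * ⟨v, hv⟩ ∈ D := by
            rw [hd, mul_inv_rev, inv_mul_cancel_right]
            exact inv_mem d.2
          exact h6
      rw [hcard, hcdef]
      -- conjugate `H` to `H₀`
      obtain ⟨g, hg⟩ := exists_conj_of_card hG hmn hH₀ hH
      have hidx : ∀ Y : Subgroup G, (N ⊓ centralizer (Y : Set G)).relIndex N * Nat.card (N ⊓ centralizer (Y : Set G) : Subgroup G) = Nat.card N := by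
        intro Y
        rw [Subgroup.relIndex, mul_comm, ← Nat.card_congr (Subgroup.subgroupOfEquivOfLe
          (inf_le_left : N ⊓ centralizer (Y : Set G) ≤ N)).toEquiv, Subgroup.card_mul_index]
      have hcardC : Nat.card (N ⊓ centralizer (H : Set G) : Subgroup G) =
          Nat.card (N ⊓ centralizer (H₀ : Set G) : Subgroup G) := by
        refine Nat.card_congr
          { toFun := fun v => ⟨g⁻¹ * v * g, ?_, ?_⟩
            invFun := fun v => ⟨g * v * g⁻¹, ?_, ?_⟩
            left_inv := fun v => Subtype.ext (by show g * (g⁻¹ * (v : G) * g) * g⁻¹ = v; group)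
            right_inv := fun v => Subtype.ext (by show g⁻¹ * (g * (v : G) * g⁻¹) * g = v; group) }
        · simpa using Subgroup.Normal.conj_mem inferInstance (v : G) v.2.1 g⁻¹
        · refine mem_centralizer_iff.mpr fun y hy => ?_
          have h7 := mem_centralizer_iff.mp v.2.2 (g * y * g⁻¹) (hg ▸ mem_map_of_mem _ hy)
          calc y * (g⁻¹ * v * g) = g⁻¹ * ((g * y * g⁻¹) * v) * g := by group
            _ = g⁻¹ * v * g * y := by rw [h7]; group
        · exact Subgroup.Normal.conj_mem inferInstance (v : G) v.2.1 g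
        · refine mem_centralizer_iff.mpr fun y hy => ?_
          rw [SetLike.mem_coe, hg] at hy
          obtain ⟨z, hz, rfl⟩ := hy
          show g * z * g⁻¹ * (g * v * g⁻¹) = g * v * g⁻¹ * (g * z * g⁻¹)
          calc g * z * g⁻¹ * (g * v * g⁻¹) = g * (z * v) * g⁻¹ := by group
            _ = _ := by rw [mem_centralizer_iff.mp v.2.2 z hz]; group
      have h8 := hidx H
      rw [hcardC] at h8
      exact Nat.eq_of_mul_eq_mul_right Nat.card_pos (h8.trans (hidx H₀).symm)
    haveI : Fintype {K : Subgroup (G ⧸ N) // Nat.card K = m} := Fintype.ofFinite _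
    rw [← Nat.card_congr (Equiv.sigmaFiberEquiv red), Nat.card_sigma, Finset.sum_congr rfl fun K _ => hfib K,
      Finset.sum_const, Finset.card_univ, smul_eq_mul, ← Nat.card_eq_fintype_card]

end Cfsg.Agent.FGS3.HallCount
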