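import Cfsg.Agent.FGS2.J2.Elements

/-!
The 37800 minimal vectors of the icosian lattice and the conjugacy of its 315 reflections.
-/

set_option autoImplicit false
set_option maxRecDepth 200000

namespace Cfsg.Agent.FGS3.IcoRefl

open Quaternion
open Cfsg.Agent.FGS2.J2
open Cfsg.Agent.FGS2.J2.Ico (zero one mul conj nrm val)

/-- The codes of the short icosians of reduced norm one. -/
def unitCodes : List ℕ :=
  (List.range 256).flatMap fun k => (bucket k).filter fun n => nuOf n == (1, 0)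

/-- The unit icosians. -/
def unitList : List Ico := unitCodes.map dec

theorem unitList_check : unitList.length = 120 ∧ unitList.Nodup ∧
    ∀ u ∈ unitList, mul (conj u) u = one := by decide +kernel

theorem refl_codes_nodup : (tm0 ++ tm1 ++ tm2 ++ tm3 ++ tm4).Nodup := by decide +kernel

theorem code_refC_inj {r r' : V3} (hr : r ∈ lines) (hr' : r' ∈ lines) (h : code (refC r) = code (refC r')) :
    r = r' := by
  have hn : (lines.map fun r => code (refC r)).Nodup := tcode_all ▸ refl_codes_nodup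
  exact List.inj_on_of_nodup_map hn hr hr' h

theorem isU_nrm {u : Ico} (hu : IsU u) : nrm u = (1, 0) := by
  have h := Ico.val_nrm u
  rw [hu.val'] at h
  have h1 : zt 1 0 = zt (nrm u).1 (nrm u).2 := by
    have h' := congrArg (fun q : ℍ[ℝ] => q.re) h
    simpa [zt] using h'
  exact Prod.ext (Ico.zt_inj h1).1.symm (Ico.zt_inj h1).2.symm

theorem isU_iff (u : Ico) : IsU u ↔ u ∈ unitList := by
  refine ⟨fun hu => ?_, fun h => unitList_check.2.2 u h⟩
  have hn := isU_nrm hu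
  obtain ⟨n, hn', e⟩ := bucket_complete (P := u) (by rw [hn]; decide +kernel)
  refine List.mem_map.2 ⟨n, List.mem_flatMap.2 ⟨key u, List.mem_range.2 (key_lt u), List.mem_filter.2 ⟨hn', ?_⟩⟩, e⟩
  rw [entry_nrm (key_lt u) hn', e, hn]
  rfl

theorem min_iff (x : Fin 3 → ℍ[ℝ]) : x ∈ Spor.icoLeech ∧ Spor.qip x x = 4 ↔
    ∃ v ∈ lines, ∃ u, IsU u ∧ vv (smulV u v) = x := by
  constructor
  · rintro ⟨hx, h4⟩
    obtain ⟨v, hv, rfl⟩ := exists_vv hx
    have hn := (nrmV_four v).1 h4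
    rcases short_vec hv (by rw [hn]; decide +kernel) with h | ⟨-, u, hu, hl⟩
    · rw [h] at hn; exact absurd hn (by decide +kernel)
    · have hc : IsU (conj u) := by
        apply Ico.val_inj
        simp only [Ico.val_mul, Ico.val_conj, Ico.val_one, star_star]
        exact hu.val'
      refine ⟨_, hl, conj u, hc, ?_⟩
      rw [vv_smulV, vv_smulV]
      funext t
      rw [← mul_assoc, Ico.val_conj, hu.val, one_mul]
  · rintro ⟨v, hv, u, hu, rfl⟩
    obtain ⟨hL, h4⟩ := line_spec hv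
    exact ⟨(mem_icoLeech _).2 (inL_smul u hL), (nrmV_four _).2 ((nrmV_smul hu v).trans h4)⟩

theorem smulV_inj {u u' : Ico} {v v' : V3} (hu : IsU u) (hu' : IsU u') (hv : v ∈ lines) (hv' : v' ∈ lines)
    (h : vv (smulV u v) = vv (smulV u' v')) : v = v' ∧ u = u' := by
  have hvv : v = v' := by
    have e : Spor.qrefl (vv v) = Spor.qrefl (vv v') := by rw [← qrefl_unit hu, h, qrefl_unit hu']
    refine code_refC_inj hv hv' (congrArg code (Acts.unique (reflPerm_acts hv) ?_))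
    intro a
    refine Subtype.ext ?_
    show Spor.qrefl (vv v) _ = _
    rw [e]
    exact qrefl_comb hv' a
  subst hvv
  refine ⟨rfl, Ico.val_inj ?_⟩
  have h0 : ∃ t, vv v t ≠ 0 := by
    by_contra hne
    push Not at hne
    have h4 := (nrmV_four v).2 (line_spec hv).2
    rw [Spor.qip, Finset.sum_eq_zero (fun t _ => by rw [hne t, zero_mul])] at h4
    rw [show (4 : ℍ[ℝ]) = ((4 : ℝ) : ℍ[ℝ]) by norm_cast, show (0 : ℍ[ℝ]) = ((0 : ℝ) : ℍ[ℝ]) by norm_cast,
      Quaternion.coe_inj] at h4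
    norm_num at h4
  obtain ⟨t, ht⟩ := h0
  have := congrFun h t
  rw [vv_smulV, vv_smulV] at this
  exact mul_right_cancel₀ ht this

theorem count_pairs {X : Type} (L : List V3) (U : List Ico) (F : V3 → Ico → X) (S : Set X) (hL : L.Nodup)
    (hU : U.Nodup) (hS : ∀ x, x ∈ S ↔ ∃ v ∈ L, ∃ u ∈ U, F v u = x)
    (hinj : ∀ v ∈ L, ∀ v' ∈ L, ∀ u ∈ U, ∀ u' ∈ U, F v u = F v' u' → v = v' ∧ u = u') :
    S.ncard = L.length * U.length := by
  classical
  have e : S = ↑((L.toFinset ×ˢ U.toFinset).image fun p => F p.1 p.2) := by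
    ext x
    rw [hS, Finset.coe_image, Set.mem_image]
    constructor
    · rintro ⟨v, hv, u, hu, he⟩
      exact ⟨(v, u), Finset.mem_coe.2 (Finset.mem_product.2 ⟨List.mem_toFinset.2 hv, List.mem_toFinset.2 hu⟩), he⟩
    · rintro ⟨p, hp, he⟩
      rw [Finset.mem_coe, Finset.mem_product] at hp
      exact ⟨p.1, List.mem_toFinset.1 hp.1, p.2, List.mem_toFinset.1 hp.2, he⟩
  rw [e, Set.ncard_coe_finset, Finset.card_image_of_injOn, Finset.card_product,
    List.toFinset_card_of_nodup hL, List.toFinset_card_of_nodup hU]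
  intro p hp q hq h
  simp only [Finset.mem_coe, Finset.mem_product, List.mem_toFinset] at hp hq
  exact Prod.ext (hinj _ hp.1 _ hq.1 _ hp.2 _ hq.2 h).1 (hinj _ hp.1 _ hq.1 _ hp.2 _ hq.2 h).2

theorem lines_nodup : lines.Nodup := by
  have hn : (lines.map fun r => code (refC r)).Nodup := tcode_all ▸ refl_codes_nodup
  exact List.Nodup.of_map _ hn

theorem ncard_min : {r : Fin 3 → ℍ[ℝ] | r ∈ Spor.icoLeech ∧ Spor.qip r r = 4}.ncard = 37800 := by
  rw [count_pairs lines unitList (fun v u => vv (smulV u v))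
    {r : Fin 3 → ℍ[ℝ] | r ∈ Spor.icoLeech ∧ Spor.qip r r = 4} lines_nodup unitList_check.2.1
    (fun x => (min_iff x).trans ⟨fun ⟨v, hv, u, hu, he⟩ => ⟨v, hv, u, (isU_iff u).1 hu, he⟩,
      fun ⟨v, hv, u, hu, he⟩ => ⟨v, hv, u, (isU_iff u).2 hu, he⟩⟩)
    (fun v hv v' hv' u hu u' hu' h => smulV_inj ((isU_iff _).2 hu) ((isU_iff _).2 hu') hv hv' h),
    lines_length, unitList_check.1]

theorem refl_eq_of_N {f f' : Equiv.Perm Spor.icoLeech} (hf : Spor.IsIcoReflection f) (hfm : f ∈ Spor.twoJ2)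
    (hf' : Spor.IsIcoReflection f') (hfm' : f' ∈ Spor.twoJ2) (h : N ⟨f, hfm⟩ = N ⟨f', hfm'⟩) : f = f' := by
  obtain ⟨r, hr, hC, -⟩ := exists_line hf
  obtain ⟨r', hr', hC', -⟩ := exists_line hf'
  rw [N, N, (cmat_acts ⟨f, hfm⟩).unique hC, (cmat_acts ⟨f', hfm'⟩).unique hC'] at h
  obtain rfl := code_refC_inj hr hr' h
  refine Equiv.ext fun x => ?_
  obtain ⟨a, rfl⟩ := pt_surj x
  rw [hC, hC']

theorem ncard_refl : {f : Equiv.Perm Spor.icoLeech | Spor.IsIcoReflection f}.ncard = 315 := by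
  classical
  have hl : lines.Nodup := by
    have hn : (lines.map fun r => code (refC r)).Nodup := tcode_all ▸ refl_codes_nodup
    exact List.Nodup.of_map _ hn
  have e : {f : Equiv.Perm Spor.icoLeech | Spor.IsIcoReflection f} =
      Set.range (fun r : {r : V3 // r ∈ lines.toFinset} => reflPerm (List.mem_toFinset.1 r.2)) := by
    ext f
    constructor
    · intro hf
      obtain ⟨r, hr, hC, -⟩ := exists_line hf
      refine ⟨⟨r, List.mem_toFinset.2 hr⟩, Equiv.ext fun x => ?_⟩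
      obtain ⟨a, rfl⟩ := pt_surj x
      rw [hC, reflPerm_acts]
    · rintro ⟨r, rfl⟩; exact reflPerm_isRefl _
  rw [e, ← Nat.card_coe_set_eq, Nat.card_range_of_injective, Nat.card_eq_fintype_card, Fintype.card_coe,
    List.toFinset_card_of_nodup hl, lines_length]
  intro r r' h
  refine Subtype.ext (code_refC_inj (List.mem_toFinset.1 r.2) (List.mem_toFinset.1 r'.2) ?_)
  have h' : reflPerm (List.mem_toFinset.1 r.2) = reflPerm (List.mem_toFinset.1 r'.2) := h
  exact congrArg code (Acts.unique (h' ▸ reflPerm_acts (List.mem_toFinset.1 r.2)) (reflPerm_acts _))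

theorem qrefl_conj {s : Fin 3 → ℍ[ℝ]} (hs : Spor.qip s s = 4) (r x : Fin 3 → ℍ[ℝ]) :
    Spor.qrefl s (Spor.qrefl r (Spor.qrefl s x)) = Spor.qrefl (Spor.qrefl s r) x := by
  have hlin : Spor.qrefl r (Spor.qrefl s x) =
      fun t => (-((1 / 2 : ℝ) • Spor.qip (Spor.qrefl s x) r)) * r t + Spor.qrefl s x t := by
    funext t
    simp only [Spor.qrefl]
    rw [neg_mul]
    abel
  have hq : Spor.qip (Spor.qrefl s x) r = Spor.qip x (Spor.qrefl s r) := by
    rw [← qip_qrefl hs (Spor.qrefl s x) r, qrefl_qrefl hs]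
  rw [hlin, qrefl_linear, qrefl_qrefl hs, hq]
  funext t
  simp only [Spor.qrefl]
  rw [neg_mul]
  abel

theorem conj_refl_gen {g f : Equiv.Perm Spor.icoLeech} (hg : Spor.IsIcoReflection g)
    (hf : Spor.IsIcoReflection f) : Spor.IsIcoReflection (g * f * g) := by
  obtain ⟨s, hs, hsx⟩ := hg
  obtain ⟨r, hr, hrx⟩ := hf
  refine ⟨g r, ?_, fun x => ?_⟩
  · rw [hsx, qip_qrefl hs, hr]
  · rw [Equiv.Perm.mul_apply, Equiv.Perm.mul_apply, hsx, hrx, hsx, hsx, qrefl_conj hs]

theorem conj_refl {g f : Equiv.Perm Spor.icoLeech} (hg : g ∈ Spor.twoJ2) (hf : Spor.IsIcoReflection f) :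
    Spor.IsIcoReflection (g * f * g⁻¹) := by
  revert f
  refine (Subgroup.closure_induction
    (p := fun g _ => (∀ f, Spor.IsIcoReflection f → Spor.IsIcoReflection (g * f * g⁻¹)) ∧
      ∀ f, Spor.IsIcoReflection f → Spor.IsIcoReflection (g⁻¹ * f * g)) ?_ ?_ ?_ ?_ hg).1 _
  · intro k hk
    constructor <;> intro f hf <;> rw [refl_involutive hk] <;> exact conj_refl_gen hk hf
  · exact ⟨fun f hf => by simpa using hf, fun f hf => by simpa using hf⟩
  · intro a b _ _ ha hb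
    exact ⟨fun f hf => by simpa only [mul_inv_rev, mul_assoc] using ha.1 _ (hb.1 f hf),
      fun f hf => by simpa only [mul_inv_rev, mul_assoc] using hb.2 _ (ha.2 f hf)⟩
  · intro a _ ha
    exact ⟨fun f hf => by simpa only [inv_inv] using ha.2 f hf, fun f hf => by simpa only [inv_inv] using ha.1 f hf⟩

theorem transitive {f f' : Equiv.Perm Spor.icoLeech} (hf : Spor.IsIcoReflection f)
    (hf' : Spor.IsIcoReflection f') : ∃ g ∈ Spor.twoJ2, g * f * g⁻¹ = f' := by
  have hfm : f ∈ Spor.twoJ2 := Subgroup.subset_closure hf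
  have hfm' : f' ∈ Spor.twoJ2 := Subgroup.subset_closure hf'
  obtain ⟨n, hn, e⟩ := refl_image hf hfm
  obtain ⟨n', hn', e'⟩ := refl_image hf' hfm'
  obtain ⟨⟨g, hg⟩, hgq⟩ := QuotientGroup.mk_surjective (uEl n' * (uEl n)⁻¹)
  refine ⟨g, hg, ?_⟩
  have hm : g * f * g⁻¹ ∈ Spor.twoJ2 := mul_mem (mul_mem hg hfm) (inv_mem hg)
  refine refl_eq_of_N (conj_refl hg hf) hm hf' hfm' ?_
  rw [← M_mk, ← M_mk]
  congr 1
  rw [show (⟨g * f * g⁻¹, hm⟩ : Spor.twoJ2) = ⟨g, hg⟩ * ⟨f, hfm⟩ * ⟨g, hg⟩⁻¹ from rfl, QuotientGroup.mk_mul,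
    QuotientGroup.mk_mul, QuotientGroup.mk_inv, hgq, e, e', ← conj_uEl hn, ← conj_uEl hn']
  group

end Cfsg.Agent.FGS3.IcoRefl
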