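import Mathlib

/-! Krull–Remak–Schmidt for finite groups: a directly indecomposable factor matches one of any other
decomposition. -/

set_option autoImplicit false

namespace Cfsg.Agent.FGS3.KrullSchmidt

variable {A : Type*} [Group A] [Finite A]

/-- directly indecomposable -/
def Indec (A : Type*) [Group A] : Prop :=
  Nontrivial A ∧ ∀ H K : Subgroup A, H.Normal → K.Normal → H ⊓ K = ⊥ → H ⊔ K = ⊤ → H = ⊥ ∨ K = ⊥

theorem exists_iterate_idem {α : Type*} [Finite α] (f : α → α) : ∃ N, 0 < N ∧ f^[N] ∘ f^[N] = f^[N] := by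
  obtain ⟨a, b, hne, h⟩ := Finite.exists_ne_map_eq_of_infinite fun n : ℕ => f^[n]
  rcases lt_or_gt_of_ne hne with hlt | hlt
  all_goals first
    | exact idem_aux f a b hlt h
    | exact idem_aux f b a hlt h.symm
where
  idem_aux {α : Type _} (f : α → α) (a b : ℕ) (hlt : a < b) (h : f^[a] = f^[b]) :
      ∃ N, 0 < N ∧ f^[N] ∘ f^[N] = f^[N] := by
    obtain ⟨d, rfl⟩ : ∃ d, b = a + (d + 1) := ⟨b - a - 1, by omega⟩
    have hper : ∀ m k, f^[a + k + m * (d + 1)] = f^[a + k] := by
      intro m
      induction m with
      | zero => simp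
      | succ m ih =>
        intro k
        rw [show a + k + (m + 1) * (d + 1) = a + (k + (d + 1)) + m * (d + 1) by ring, ih,
          show a + (k + (d + 1)) = k + (a + (d + 1)) by ring, Function.iterate_add, ← h,
          ← Function.iterate_add, add_comm a k]
    refine ⟨(a + 1) * (d + 1), by positivity, ?_⟩
    have hle : a ≤ (a + 1) * (d + 1) :=
      le_trans (Nat.le_succ a) (Nat.le_mul_of_pos_right _ (Nat.succ_pos d))
    obtain ⟨k, hk⟩ := Nat.exists_eq_add_of_le hle
    rw [← Function.iterate_add]
    conv_lhs => rw [show (a + 1) * (d + 1) + (a + 1) * (d + 1) = a + k + (a + 1) * (d + 1) by omega]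
    rw [hper, ← hk]

/-- Fitting: an endomorphism commuting with inner automorphisms is injective or nilpotent. -/
theorem fitting (hA : Indec A) (f : A →* A) (hf : ∀ g x : A, f (g * x * g⁻¹) = g * f x * g⁻¹)
    (hni : ¬ Function.Injective f) : ∀ x, f x = x → x = 1 := by
  obtain ⟨N, hN, hidem⟩ := exists_iterate_idem (f : A → A)
  have hiter : ∀ k, ∃ F : A →* A, (F : A → A) = (f : A → A)^[k] := by
    intro k
    induction k with
    | zero => exact ⟨MonoidHom.id A, rfl⟩
    | succ k ih =>
      obtain ⟨F, hF⟩ := ih
      exact ⟨F.comp f, by rw [Function.iterate_succ, ← hF]; rfl⟩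
  obtain ⟨F, hF⟩ := hiter N
  have hFn : ∀ g x : A, F (g * x * g⁻¹) = g * F x * g⁻¹ := by
    intro g x
    rw [hF]
    clear hF hidem hN
    induction N with
    | zero => rfl
    | succ k ih => rw [Function.iterate_succ_apply', Function.iterate_succ_apply', ih, hf]
  have hFF : ∀ x, F (F x) = F x := fun x => by rw [hF]; exact congrFun hidem x
  haveI : F.range.Normal := ⟨by rintro _ ⟨x, rfl⟩ g; exact ⟨g * x * g⁻¹, hFn g x⟩⟩
  rcases hA.2 F.range F.ker inferInstance inferInstance (by
    rw [Subgroup.eq_bot_iff_forall]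
    rintro _ ⟨⟨x, rfl⟩, hy⟩
    have hy' : F (F x) = 1 := hy
    rw [hFF] at hy'
    exact hy') (by
    rw [eq_top_iff]
    intro x _
    rw [show x = F x * ((F x)⁻¹ * x) by group]
    exact mul_mem (Subgroup.mem_sup_left ⟨x, rfl⟩) (Subgroup.mem_sup_right (by
      rw [MonoidHom.mem_ker, map_mul, map_inv, hFF, inv_mul_cancel]))) with h | h
  · intro x hx
    have h1 : F x ∈ F.range := ⟨x, rfl⟩
    rw [h, Subgroup.mem_bot, hF, Function.iterate_fixed hx] at h1
    exact h1
  · refine absurd ?_ hni
    rw [MonoidHom.ker_eq_bot_iff, hF, ← Nat.succ_pred_eq_of_pos hN, Function.iterate_succ] at h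
    exact Function.Injective.of_comp h

/-- The exchange property. -/
theorem exchange {κ : Type*} [Finite κ] {B : κ → Type*} [∀ j, Group (B j)] (hA : Indec A)
    (hB : ∀ j, Indec (B j)) (ι : A →* ((j : κ) → B j)) (π : ((j : κ) → B j) →* A)
    (hπι : ∀ a, π (ι a) = a) (hnorm : ι.range.Normal) :
    ∃ j, Function.Bijective fun a => ι a j := by
  classical
  haveI := Fintype.ofFinite κ
  let mask : Finset κ → ((j : κ) → B j) →* ((j : κ) → B j) := fun s =>
    { toFun := fun f j => if j ∈ s then f j else 1
      map_one' := funext fun j => by simp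
      map_mul' := fun f g => funext fun j => by by_cases h : j ∈ s <;> simp [h] }
  let S : Finset κ → (A →* A) := fun s => (π.comp (mask s)).comp ι
  have hS : ∀ s, ∀ g x : A, S s (g * x * g⁻¹) = g * S s x * g⁻¹ := by
    intro s g x
    have e : mask s (ι (g * x * g⁻¹)) = ι g * mask s (ι x) * (ι g)⁻¹ := by
      funext j
      by_cases h : j ∈ s <;> simp [mask, h]
    show π (mask s (ι (g * x * g⁻¹))) = _
    rw [e, map_mul, map_mul, map_inv, hπι]
    rfl
  have key : ∀ s : Finset κ, Function.Injective (S s) → ∃ j, Function.Injective (S {j}) := by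
    intro s
    induction s using Finset.induction_on with
    | empty =>
      intro h
      obtain ⟨a, ha⟩ := @exists_ne A hA.1 1
      refine absurd (h (?_ : S ∅ a = S ∅ 1)) ha
      have e : ∀ v, mask ∅ v = 1 := fun v => funext fun j => by simp [mask]
      show π (mask ∅ (ι a)) = π (mask ∅ (ι 1))
      rw [e, e]
    | insert j s hj ih =>
      intro h
      by_cases hsj : Function.Injective (S {j})
      · exact ⟨j, hsj⟩
      refine ih ((injective_iff_map_eq_one _).2 fun x hx => ?_)
      have hbij : Function.Bijective (S (insert j s)) := Finite.injective_iff_bijective.1 h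
      let T := MulEquiv.ofBijective (S (insert j s)) hbij
      have hsum : S (insert j s) x = S {j} x * S s x := by
        show π _ = π _ * π _
        rw [← map_mul]
        congr 1
        funext k
        by_cases hk : k = j
        · subst hk; simp [mask, hj]
        · by_cases hks : k ∈ s <;> simp [mask, hk, hks]
      refine fitting hA (T.symm.toMonoidHom.comp (S {j})) (fun g y => ?_) (fun hi => hsj ?_) x ?_
      · show T.symm (S {j} (g * y * g⁻¹)) = g * T.symm (S {j} y) * g⁻¹
        rw [MulEquiv.symm_apply_eq]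
        show _ = S (insert j s) _
        rw [hS, hS]
        congr 2
        exact (T.apply_symm_apply _).symm
      · exact fun a b hab => hi (by simp [hab])
      · show T.symm (S {j} x) = x
        rw [MulEquiv.symm_apply_eq]
        show _ = S (insert j s) x
        rw [hsum, hx, mul_one]
  obtain ⟨j, hj⟩ := key Finset.univ (by
    intro a b h
    have e : ∀ v, mask Finset.univ v = v := fun v => funext fun j => by simp [mask]
    change π (mask _ (ι a)) = π (mask _ (ι b)) at h
    rwa [e, e, hπι, hπι] at h)
  refine ⟨j, ?_⟩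
  let φ : A →* B j := (Pi.evalMonoidHom B j).comp ι
  let ψ : B j →* A := π.comp (MonoidHom.mulSingle B j)
  have hψφ : ∀ a, S {j} a = ψ (φ a) := by
    intro a
    show π _ = π _
    congr 1
    funext k
    by_cases hk : k = j
    · subst hk; simp [mask, φ]
    · simp [mask, hk]
  have hφi : Function.Injective φ := fun a b h => hj (by rw [hψφ, hψφ, h])
  refine ⟨hφi, ?_⟩
  have hbij : Function.Bijective (S {j}) := Finite.injective_iff_bijective.1 hj
  haveI : φ.range.Normal := by
    rw [MonoidHom.range_comp]
    exact hnorm.map _ (Function.surjective_eval j)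
  rcases (hB j).2 φ.range ψ.ker inferInstance inferInstance (by
    rw [Subgroup.eq_bot_iff_forall]
    rintro _ ⟨⟨a, rfl⟩, hy⟩
    have hy' : ψ (φ a) = 1 := hy
    rw [← hψφ] at hy'
    rw [hj (hy'.trans (map_one _).symm), map_one]) (by
    rw [eq_top_iff]
    intro b _
    obtain ⟨a, ha⟩ := hbij.2 (ψ b)
    rw [show b = φ a * ((φ a)⁻¹ * b) by group]
    exact mul_mem (Subgroup.mem_sup_left ⟨a, rfl⟩) (Subgroup.mem_sup_right (by
      rw [MonoidHom.mem_ker, map_mul, map_inv, ← hψφ, ha, inv_mul_cancel]))) with h | h
  · obtain ⟨a, ha⟩ := @exists_ne A hA.1 1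
    have h1 : φ a ∈ φ.range := ⟨a, rfl⟩
    rw [h, Subgroup.mem_bot] at h1
    exact absurd (hφi (h1.trans (map_one φ).symm)) ha
  · intro b
    obtain ⟨a, ha⟩ := hbij.2 (ψ b)
    exact ⟨a, (MonoidHom.ker_eq_bot_iff ψ).1 h (by rw [← ha, hψφ]; rfl)⟩

theorem decomp : ∀ {m n : ℕ} {A : Fin m → Type*} {B : Fin n → Type*} [∀ i, Group (A i)]
    [∀ j, Group (B j)] [∀ i, Finite (A i)] [∀ j, Finite (B j)], (∀ i, Indec (A i)) → (∀ j, Indec (B j)) →
    (((i : Fin m) → A i) ≃* ((j : Fin n) → B j)) →
    ∃ σ : Fin m ≃ Fin n, ∀ i, Nonempty (A i ≃* B (σ i)) := by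
  intro m
  induction m with
  | zero =>
    intro n A B _ _ _ _ _ hB e
    cases n with
    | zero => exact ⟨Equiv.refl _, fun i => i.elim0⟩
    | succ n =>
      exfalso
      obtain ⟨b, hb⟩ := @exists_ne (B 0) (hB 0).1 1
      apply hb
      have h : Pi.mulSingle (0 : Fin (n + 1)) b = (1 : (j : Fin (n + 1)) → B j) :=
        e.symm.injective (Subsingleton.elim _ _)
      exact Pi.mulSingle_eq_one_iff.1 h
  | succ m ih =>
    intro n A B _ _ _ _ hA hB e
    classical
    let ι : A 0 →* ((j : Fin n) → B j) := e.toMonoidHom.comp (MonoidHom.mulSingle A 0)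
    let π : ((j : Fin n) → B j) →* A 0 := (Pi.evalMonoidHom A 0).comp e.symm.toMonoidHom
    have hn : ι.range.Normal := by
      rw [MonoidHom.range_comp]
      refine Subgroup.Normal.map ?_ _ e.surjective
      refine ⟨?_⟩
      rintro _ ⟨a, rfl⟩ g
      refine ⟨g 0 * a * (g 0)⁻¹, funext fun i => ?_⟩
      by_cases hi : i = 0
      · subst hi; simp
      · simp [hi]
    obtain ⟨j, hj⟩ := exchange (hA 0) hB ι π (fun a => by simp [ι, π]) hn
    cases n with
    | zero => exact j.elim0
    | succ n =>
      let p : ((k : Fin n) → B (j.succAbove k)) →* ((i : Fin m) → A i.succ) :=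
        { toFun := fun g i => e.symm (Fin.insertNth j 1 g) i.succ
          map_one' := by
            have h1 : (Fin.insertNth j 1 (1 : (k : Fin n) → B (j.succAbove k)) : (k : Fin (n + 1)) → B k) = 1 :=
              Fin.insertNth_eq_iff.2 ⟨rfl, funext fun k => rfl⟩
            funext i; rw [h1, map_one]; rfl
          map_mul' := fun g g' => by
            have h1 : (Fin.insertNth j 1 (g * g') : (k : Fin (n + 1)) → B k) =
                Fin.insertNth j 1 g * Fin.insertNth j 1 g' :=
              Fin.insertNth_eq_iff.2 ⟨by simp, funext fun k => by simp [Fin.removeNth]⟩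
            funext i; rw [h1, map_mul]; rfl }
      have hp : Function.Bijective p := by
        constructor
        · rw [injective_iff_map_eq_one]
          intro g hg
          have hrep : e.symm (Fin.insertNth j 1 g) = Pi.mulSingle 0 (e.symm (Fin.insertNth j 1 g) 0) := by
            funext i
            induction i using Fin.cases with
            | zero => simp
            | succ i => rw [Pi.mulSingle_eq_of_ne (Fin.succ_ne_zero i)]; exact congrFun hg i
          have h2 : (Fin.insertNth j 1 g : (k : Fin (n + 1)) → B k) =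
              ι (e.symm (Fin.insertNth j 1 g) 0) := by
            show _ = e (Pi.mulSingle 0 _)
            rw [← hrep, e.apply_symm_apply]
          have h3 : e.symm (Fin.insertNth j 1 g) 0 = 1 := hj.1 (by
            show ι _ j = ι 1 j
            rw [← h2, map_one]; simp)
          funext k
          have h4 := congrFun h2 (j.succAbove k)
          rw [h3, map_one, Fin.insertNth_apply_succAbove] at h4
          exact h4
        · intro t
          let f : (i : Fin (m + 1)) → A i := Fin.cons 1 t
          obtain ⟨a, ha⟩ := hj.2 ((e f j)⁻¹)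
          refine ⟨Fin.removeNth j (e f * ι a), funext fun i => ?_⟩
          show e.symm (Fin.insertNth j 1 _) i.succ = t i
          have h1 : (Fin.insertNth j 1 (Fin.removeNth j (e f * ι a)) : (k : Fin (n + 1)) → B k) = e f * ι a := by
            refine Fin.insertNth_eq_iff.2 ⟨?_, rfl⟩
            rw [Pi.mul_apply]
            exact (show ι a j = (e f j)⁻¹ from ha) ▸ (mul_inv_cancel _).symm
          rw [h1, map_mul, Pi.mul_apply, e.symm_apply_apply]
          show f i.succ * e.symm (e (Pi.mulSingle 0 a)) i.succ = t i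
          rw [e.symm_apply_apply, Pi.mulSingle_eq_of_ne (Fin.succ_ne_zero i), mul_one]
          exact Fin.cons_succ _ _ _
      obtain ⟨σ, hσ⟩ := ih (A := fun i => A i.succ) (B := fun k => B (j.succAbove k))
        (fun i => hA i.succ) (fun k => hB _) (MulEquiv.ofBijective p hp).symm
      refine ⟨(finSuccEquiv m).trans ((Equiv.optionCongr σ).trans (finSuccEquiv' j).symm), fun i => ?_⟩
      induction i using Fin.cases with
      | zero =>
        simp only [Equiv.trans_apply, finSuccEquiv_zero, Equiv.optionCongr_apply, Option.map_none,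
          finSuccEquiv'_symm_none]
        exact ⟨MulEquiv.ofBijective ((Pi.evalMonoidHom B j).comp ι) hj⟩
      | succ i =>
        simp only [Equiv.trans_apply, finSuccEquiv_succ, Equiv.optionCongr_apply, Option.map_some,
          finSuccEquiv'_symm_some]
        exact hσ i

end Cfsg.Agent.FGS3.KrullSchmidt
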