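import Cfsg.Agent.FGS3.TTPrim
import Cfsg.Agent.FGS3.TTDich

/-! The quasisimple layer of a 3-transposition group with central cores. -/

set_option autoImplicit false
open Cfsg
open scoped commutatorElement

namespace Cfsg.Agent.FGS3.TT

variable {G : Type*} [Group G] {D : Set G}

theorem perfect_of_quasisimple {L : Subgroup G} (hL : IsQuasisimple L) : ⁅L, L⁆ = L := by
  rw [← Subgroup.map_subtype_commutator, hL.1.commutator_eq_top, ← MonoidHom.range_eq_map,
    Subgroup.range_subtype]

theorem ne_bot_of_quasisimple {L : Subgroup G} (hL : IsQuasisimple L) : L ≠ ⊥ := by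
  haveI := Components.quasisimple_nontrivial hL
  exact (Subgroup.nontrivial_iff_ne_bot L).1 inferInstance

theorem Semisimple.quotient_comm [Finite G] {L : Subgroup G} [L.Normal] (hi : L.index ≤ 2)
    (u v : G ⧸ L) : u * v = v * u := by
  have hc : Nat.card (G ⧸ L) ≤ 2 := by rwa [← Subgroup.index_eq_card]
  have hpos : 0 < Nat.card (G ⧸ L) := Nat.card_pos
  haveI : IsCyclic (G ⧸ L) := by
    interval_cases h : Nat.card (G ⧸ L)
    · haveI := (Nat.card_eq_one_iff_unique.1 h).1
      infer_instance
    · haveI := Fact.mk Nat.prime_two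
      exact isCyclic_of_prime_card h
  exact IsCyclic.commGroup.mul_comm u v

theorem Semisimple.commutator_eq [Finite G] {L : Subgroup G} [L.Normal] (hL : IsQuasisimple L)
    (hi : L.index ≤ 2) : commutator G = L := by
  refine le_antisymm ?_ ?_
  · rw [commutator_eq_closure, Subgroup.closure_le]
    rintro _ ⟨u, v, rfl⟩
    rw [SetLike.mem_coe, ← QuotientGroup.eq_one_iff, ← QuotientGroup.mk'_apply,
      map_commutatorElement, commutatorElement_eq_one_iff_mul_comm]
    exact quotient_comm hi _ _
  · conv_lhs => rw [← perfect_of_quasisimple hL]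
    exact Subgroup.commutator_mono le_top le_top

theorem Semisimple.dich [Finite G] (h : Semisimple D) {L : Subgroup G} [L.Normal]
    (hL : IsQuasisimple L) (hF : generalizedFittingSubgroup G = L ⊔ Subgroup.center G)
    (hi : L.index ≤ 2) : Dich G D := by
  refine ⟨h.cls, h.two, fun N hN => ?_⟩
  rw [Semisimple.commutator_eq hL hi]
  haveI := hN
  rcases Components.quasisimple_normal_eq_top_or_le_center hL (N.subgroupOf L) with ht | hc
  · exact Or.inr (Subgroup.subgroupOf_eq_top.1 ht)
  · left
    refine le_trans (fun n hn => ?_) (h.centralizer_le_center hF)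
    refine mem_centralizer_of_displacement (perfect_of_quasisimple hL)
      (Q := (Subgroup.center L).map L.subtype) ?_ ?_ fun l hl => ?_
    · haveI : Group.IsSolvable (Subgroup.center L) :=
        Group.isSolvable_of_comm fun a b => mul_comm' a b
      exact Group.isSolvable_of_surjective (f := L.subtype.subgroupMap (Subgroup.center L))
        (L.subtype.subgroupMap_surjective _)
    · intro l hl
      rw [Subgroup.mem_centralizer_iff]
      rintro _ ⟨c, hc', rfl⟩
      exact (congrArg Subtype.val (Subgroup.mem_center_iff.1 hc' ⟨l, hl⟩)).symm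
    · have h1 : l * n * l⁻¹ * n⁻¹ ∈ N := mul_mem (hN.conj_mem n hn l) (inv_mem hn)
      have h2 : l * n * l⁻¹ * n⁻¹ ∈ L := by
        have : n * l⁻¹ * n⁻¹ ∈ L := Subgroup.Normal.conj_mem inferInstance _ (inv_mem hl) n
        simpa [mul_assoc] using mul_mem hl this
      exact ⟨⟨_, h2⟩, hc (show (⟨_, h2⟩ : L) ∈ N.subgroupOf L from h1), rfl⟩

theorem Semisimple.index_le_two_of_connected [Finite G] (h : Semisimple D) {L : Subgroup G}
    [L.Normal] (hL : IsQuasisimple L) (hc : (commutingGraph D).Connected) : L.index ≤ 2 := by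
  obtain ⟨a, ha, -⟩ := id h.two
  refine h.index_le_two ha fun e he => ?_
  obtain ⟨w⟩ := hc.preconnected ⟨a, ha⟩ ⟨e, he⟩
  suffices H : ∀ (u v : D), (commutingGraph D).Walk u v → (u : G) * v ∈ L from H _ _ w
  intro u v w
  induction w with
  | nil => rw [Screen.tt_mul_self h.cls.1 (Subtype.coe_prop _)]; exact one_mem _
  | @cons u v z hadj _ ih =>
    have huv : (u : G) * v ∈ L := by
      refine h.mul_mem_of_sq_mem hL u.2 v.2 ?_
      have hcm : Commute (u : G) v := hadj.2.elim id Commute.symm
      rw [(commute_iff_sq h.cls.1 u.2 v.2).1 hcm]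
      exact one_mem _
    have := mul_mem huv ih
    rwa [mul_assoc, Screen.mul_mul_self_cancel (Screen.tt_mul_self h.cls.1 v.2)] at this

theorem Prim.index_le_two [Finite G] (h : Prim D) {L : Subgroup G} [L.Normal]
    (hL : IsQuasisimple L) : L.index ≤ 2 := by
  obtain ⟨a, ha, -⟩ := id h.two
  have hs := h.semisimple
  have hD : ∀ x ∈ D, x * x = 1 := fun x hx => Screen.tt_mul_self h.cls.1 hx
  rcases rel_cases h.prim (fun x y => x ∈ D ∧ y ∈ D ∧ x * y ∈ L) (fun _ _ e => ⟨e.1, e.2.1⟩)
    (fun x hx => ⟨hx, hx, by rw [hD x hx]; exact one_mem _⟩)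
    (fun x y e => ⟨e.2.1, e.1, by
      rw [← inv_eq h.cls.1 e.1, ← inv_eq h.cls.1 e.2.1, ← mul_inv_rev]; exact inv_mem e.2.2⟩)
    (fun x y z e e' => ⟨e.1, e'.2.1, by
      have := mul_mem e.2.2 e'.2.2
      rwa [mul_assoc, Screen.mul_mul_self_cancel (hD y e.2.1)] at this⟩)
    (fun g x y e => ⟨conj_mem h.cls g e.1, conj_mem h.cls g e.2.1, by
      simpa [mul_assoc] using Subgroup.Normal.conj_mem inferInstance _ e.2.2 g⟩) ha with h1 | h1
  · obtain ⟨-, y, hy, hyc⟩ := hs.exists_two_kinds (perfect_of_quasisimple hL)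
      (ne_bot_of_quasisimple hL) ha
    have he : y * a * y⁻¹ = a := h1 _ ⟨ha, conj_mem h.cls y ha, by
      have : a * y * a⁻¹ ∈ L := Subgroup.Normal.conj_mem inferInstance _ hy a
      rw [inv_eq h.cls.1 ha] at this
      simpa [mul_assoc] using mul_mem this (inv_mem hy)⟩
    exact absurd (by rw [he]) hyc
  · exact hs.index_le_two ha fun e he => (h1 e he).2.2

end Cfsg.Agent.FGS3.TT
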